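import Cfsg.Agent.TwistedLie.D4Facts
import Cfsg.Agent.ChevField.Map
import Cfsg.Agent.F4AltSection.Torus
import Mathlib.FieldTheory.Finite.Extension

/-!
`³D₄(q)` inside the group of type `D₄`: base change, the values of twisted torus elements on the roots, and
the index of the torus.
-/

set_option autoImplicit false

namespace CfsgLib.D4AltSection

open Cfsg.Lie CfsgLib.Chevalley CfsgLib.TwistedLie

local notation "S" => sysD4

variable {K : Type*} [Field K] [Fintype K] {q : ℕ} (hq : IsPrimePow q) (hK : Fintype.card K = q ^ 3)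

include hq hK in
theorem twisted_le_group : twistedD4 K q ≤ chevD4.group K :=
  gen_le S K fun w hw => Sys.wG_mem S K (D4.word_roots hq hK w hw)

theorem sigma_fix {g : GL chevD4.Idx K} (hg : g ∈ twistedD4 K q) : D4.sigma hq hK g = g := by
  have hle : twistedD4 K q ≤ (D4.sigma hq hK).eqLocus (MonoidHom.id _) :=
    gen_le S K fun w hw => D4.sigma_gen hq hK w hw
  exact hle hg

include hq hK in
/-- An element of the twisted group scaling all root elements does so symmetrically. -/
theorem scale_twist {g : GL chevD4.Idx K} (hg : g ∈ twistedD4 K q) {α : ℕ → K}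
    (h : ∀ r < chevD4.nroots, g * Sys.xG S K r 1 * g⁻¹ = Sys.xG S K r (α r)) :
    α 13 = α 18 ^ q ∧ α 12 = α 13 ^ q ∧ α 14 ^ q = α 14 := by
  have key : ∀ r, (hr : r < chevD4.nroots) → (symE 2785620 r = 1) → ∀ r', D4.pA r = r' → r' < chevD4.nroots →
      α r' = α r ^ q := by
    intro r hr he r' hr' hlt
    have h1 := congrArg (D4.sigma hq hK) (h r hr)
    rw [map_mul, map_mul, map_inv, sigma_fix hq hK hg, D4.sigma_x hq hK hr he, D4.sigma_x hq hK hr he, hr',
      one_pow, h r' hlt] at h1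
    exact xG_inj S K hlt h1
  exact ⟨key 18 (by decide) (by decide +kernel) 13 (by decide +kernel) (by decide),
    key 13 (by decide) (by decide +kernel) 12 (by decide +kernel) (by decide),
    (key 14 (by decide) (by decide +kernel) 14 (by decide +kernel) (by decide)).symm⟩

theorem pow_eq_self {ℓ : ℕ} (hℓ : ℓ ∣ q - 1) (hq1 : 1 ≤ q) {x : K} (hx : x ^ ℓ = 1) : x ^ q = x := by
  obtain ⟨m, hm⟩ := hℓ
  conv_lhs => rw [show q = ℓ * m + 1 by omega]
  rw [pow_succ, pow_mul, hx, one_pow, one_mul]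

include hq hK in
theorem torus_twist {c : ℕ → Kˣ} (hg : tor chevD4 K c ∈ twistedD4 K q) :
    (torusVal chevD4 c 13 : K) = (torusVal chevD4 c 18 : K) ^ q ∧
      (torusVal chevD4 c 12 : K) = (torusVal chevD4 c 13 : K) ^ q ∧
        (torusVal chevD4 c 14 : K) ^ q = torusVal chevD4 c 14 :=
  scale_twist hq hK hg (α := fun r => (torusVal chevD4 c r : K)) fun r hr => by
    rw [Sys.tor_conj S K c hr, mul_one]

/-- The torus of the twisted group. -/
noncomputable def torT (K : Type*) [Field K] (q : ℕ) : Subgroup ↥(twistedD4 K q) :=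
  (chevD4.diagonalSubgroup K).subgroupOf (twistedD4 K q)

theorem exists_tor {t : ↥(twistedD4 K q)} (ht : t ∈ torT K q) :
    ∃ c, tor chevD4 K c = (t : GL chevD4.Idx K) := by
  have h : (t : GL chevD4.Idx K) ∈ chevD4.diagonalSubgroup K := ht
  rw [Sys.diagonal_eq S] at h
  exact h

theorem torT_comm {a b : ↥(twistedD4 K q)} (ha : a ∈ torT K q) (hb : b ∈ torT K q) : a * b = b * a :=
  Subtype.ext (Sys.diagonal_comm S K ha hb)

include hq hK in
theorem index_torT : (torT K q).index = q ^ 12 * (q + 1) * (q ^ 3 + 1) * (q ^ 8 + q ^ 4 + 1) := by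
  have h := (torT K q).card_mul_index
  have hT : Nat.card ↥(torT K q) = (q - 1) ^ 2 * (q ^ 2 + q + 1) := by
    rw [← D4.card_torus hq hK, torT, ← Subgroup.inf_subgroupOf_right,
      Nat.card_congr (Subgroup.subgroupOfEquivOfLe inf_le_right).toEquiv]
    rfl
  have hG : Nat.card ↥(twistedD4 K q) = q ^ 12 * (q ^ 2 - 1) * (q ^ 6 - 1) * (q ^ 8 + q ^ 4 + 1) :=
    D4.card_group hq hK
  rw [hT, hG] at h
  have h2 := hq.two_le
  obtain ⟨m, rfl⟩ := Nat.exists_eq_add_of_le (show 1 ≤ q by omega)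
  refine Nat.eq_of_mul_eq_mul_left (show 0 < (1 + m - 1) ^ 2 * ((1 + m) ^ 2 + (1 + m) + 1) from
    Nat.mul_pos (pow_pos (by omega) 2) (by omega)) (h.trans ?_)
  have a1 : 1 ≤ (1 + m) ^ 2 := Nat.one_le_pow _ _ (by omega)
  have a2 : 1 ≤ (1 + m) ^ 6 := Nat.one_le_pow _ _ (by omega)
  rw [Nat.add_sub_cancel_left]
  zify [a1, a2]
  ring

include hq hK in
theorem index_torT_five (h : 5 ∣ q - 1) : ¬ 5 ∣ (torT K q).index := by
  have h2 := hq.two_le
  rw [index_torT hq hK, ← ZMod.natCast_eq_zero_iff]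
  have hq1 : (q : ZMod 5) = 1 := by
    rw [show q = (q - 1) + 1 by omega, Nat.cast_add, (ZMod.natCast_eq_zero_iff _ _).2 h]; simp
  push_cast
  rw [hq1]
  decide

include hq hK in
theorem index_torT_three (h : 3 ∣ q - 1) : ¬ 9 ∣ (torT K q).index ∧ 3 ∣ (torT K q).index := by
  have h2 := hq.two_le
  obtain ⟨m, hm⟩ := h
  have hq3 : q = 3 * m + 1 := by omega
  subst hq3
  rw [index_torT hq hK, ← ZMod.natCast_eq_zero_iff, ← ZMod.natCast_eq_zero_iff]
  push_cast
  constructor
  · generalize (m : ZMod 9) = x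
    revert x
    decide
  · generalize (m : ZMod 3) = x
    revert x
    decide

include hq hK in
/-- Base change to the field of degree four. -/
theorem exists_baseChange (p : ℕ) [Fact p.Prime] [CharP K p] :
    ∃ (E : Type) (_ : Field E) (_ : Fintype E) (_ : CharP E p) (f : ↥(twistedD4 K q) →* ↥(twistedD4 E (q ^ 4))),
      Function.Injective f ∧ Fintype.card E = (q ^ 4) ^ 3 := by
  haveI : Module.Finite K (FiniteField.Extension K p 4) := Module.Finite.of_finite
  let E := FiniteField.Extension K p 4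
  haveI : Fintype E := Fintype.ofFinite E
  let ι : K →+* E := algebraMap K E
  haveI : CharP E p := charP_of_injective_ringHom ι.injective p
  have hcard : Fintype.card E = (q ^ 4) ^ 3 := by
    rw [← Nat.card_eq_fintype_card (α := E), Module.natCard_eq_pow_finrank (K := K),
      FiniteField.finrank_extension K p 4, Nat.card_eq_fintype_card, hK, ← pow_mul, ← pow_mul]
  have hle : twistedD4 K q ≤ (twistedD4 E (q ^ 4)).comap (CfsgLib.ChevField.gmap chevD4 ι) := by
    refine gen_le S K fun w hw => ?_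
    rw [Subgroup.mem_comap, CfsgLib.ChevField.gmap_wG S]
    refine TwistedLie.wG_mem_gen S E ?_
    have hq4 : ∀ t : K, t ^ q ^ 4 = t ^ q := fun t => by
      rw [show q ^ 4 = q ^ 3 * q by ring, pow_mul, ← hK, FiniteField.pow_card]
    rcases hw with ⟨t, ht, r, hr, rfl⟩ | ⟨t, rs, hrs, rfl⟩
    · exact Or.inl ⟨ι t, by rw [← map_pow, hq4, ht], r, hr, rfl⟩
    · refine Or.inr ⟨ι t, rs, hrs, ?_⟩
      simp only [List.map_cons, List.map_nil, ← map_pow]
      rw [hq4, show (q ^ 4) ^ 2 = q ^ 4 * q ^ 4 by ring, pow_mul, hq4, hq4, ← pow_mul, ← sq]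
  exact ⟨E, inferInstance, inferInstance, inferInstance,
    ((CfsgLib.ChevField.gmap chevD4 ι).comp (twistedD4 K q).subtype).codRestrict _ fun g => hle g.2,
    fun a b h => Subtype.ext (CfsgLib.ChevField.gmap_injective ι (congrArg Subtype.val h)), hcard⟩

theorem dvd_pow_four_sub_one {p q ℓ a : ℕ} [Fact p.Prime] (hq : q = p ^ a) (hℓ : ℓ.Prime) (hne : p ≠ ℓ)
    (h4 : ℓ - 1 ∣ 4) : ℓ ∣ q ^ 4 - 1 := by
  subst hq
  have hco : Nat.Coprime (p ^ a) ℓ := Nat.Coprime.pow_left _ ((Nat.coprime_primes Fact.out hℓ).mpr hne)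
  obtain ⟨c, hc⟩ := h4
  refine (Nat.modEq_iff_dvd' (Nat.one_le_pow _ _ (pow_pos (Fact.out : p.Prime).pos a))).mp ?_
  have h := (Nat.ModEq.pow_card_sub_one_eq_one hℓ hco).pow c
  rw [one_pow, ← pow_mul, ← hc] at h
  exact h.symm

end CfsgLib.D4AltSection
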