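import Cfsg.Agent.ChevOrth.DFour
import Cfsg.Agent.ChevSteinberg.Data
import Cfsg.Agent.S1054

/-!
The eight-dimensional projective representation of the group of type `D₄`.
-/

set_option autoImplicit false
set_option linter.unusedSimpArgs false

namespace CfsgLib.D4AltSection

open Cfsg Cfsg.Lie CfsgLib.Chevalley CfsgLib.ChevOrth CfsgLib.ChevSteinberg Matrix

local notation "S" => sysD4

/-- Coordinates. -/
abbrev I8 : Type := Fin 4 ⊕ Fin 4

variable {K : Type*} [Field K]

/-- Two descriptions of one element of the cover. -/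
def Lift (g : GL chevD4.Idx K) (M : GL I8 K) : Prop :=
  ∃ z, ((coverProj S K z : ↥(chevD4.group K)) : GL chevD4.Idx K) = g ∧ (DFour.checked K).coverHom z = M

theorem lift_mul {g g' : GL chevD4.Idx K} {M M' : GL I8 K} (h : Lift g M) (h' : Lift g' M') :
    Lift (g * g') (M * M') := by
  obtain ⟨z, rfl, rfl⟩ := h
  obtain ⟨z', rfl, rfl⟩ := h'
  exact ⟨z * z', by simp, by simp⟩

theorem lift_inv {g : GL chevD4.Idx K} {M : GL I8 K} (h : Lift g M) : Lift g⁻¹ M⁻¹ := by
  obtain ⟨z, rfl, rfl⟩ := h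
  exact ⟨z⁻¹, by simp, by simp⟩

theorem lift_one : Lift (1 : GL chevD4.Idx K) 1 := ⟨1, by simp, by simp⟩

theorem lift_pow {g : GL chevD4.Idx K} {M : GL I8 K} (h : Lift g M) : ∀ n : ℕ, Lift (g ^ n) (M ^ n)
  | 0 => by simpa using lift_one
  | n + 1 => by simpa [pow_succ] using lift_mul (lift_pow h n) h

theorem lift_root (r : ℕ) (t : K) : Lift (Sys.xG S K r t) ((DFour.checked K).gl r t) :=
  ⟨chevD4.scGen K r t, coverProj_gen S K r t, (DFour.checked K).coverHom_gen r t⟩

theorem exists_lift {g : GL chevD4.Idx K} (hg : g ∈ chevD4.group K) : ∃ M, Lift g M := by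
  obtain ⟨z, hz⟩ := proj_surjective S K (coverProj S K) (chevD4.scGen K) (coverProj_gen S K) ⟨g, hg⟩
  exact ⟨_, z, by rw [hz], rfl⟩

/-! ### Isometries -/

theorem lift_isometry {g : GL chevD4.Idx K} {M : GL I8 K} (h : Lift g M) :
    M ∈ isometryGroup K (quadFormPlus 4 K) := by
  obtain ⟨z, -, rfl⟩ := h
  have hle : (DFour.checked K).coverHom.range ≤ isometryGroup K (quadFormPlus 4 K) := by
    rw [Checked.coverHom_range, Subgroup.closure_le]
    rintro _ ⟨r, hr, t, rfl⟩
    exact DFour.gl_isometry r hr t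
  exact hle ⟨z, rfl⟩

theorem ne_swap : ∀ b : I8, b ≠ b.swap := by decide

/-- The Gram matrix. -/
def gram (K : Type*) [Field K] : Matrix I8 I8 K := Matrix.of fun i j => if j = i.swap then 1 else 0

theorem isometry_gram {M : GL I8 K} (hM : M ∈ isometryGroup K (quadFormPlus 4 K)) :
    (M : Matrix I8 I8 K)ᵀ * gram K * (M : Matrix I8 I8 K) = gram K := by
  rw [mem_isometryGroup_iff'] at hM
  set A := (M : Matrix I8 I8 K)
  have hB : ∀ v w : I8 → K, v ⬝ᵥ gram K *ᵥ w =
      quadFormPlus 4 K (v + w) - quadFormPlus 4 K v - quadFormPlus 4 K w := by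
    intro v w
    simp [quadFormPlus, gram, dotProduct, Matrix.mulVec, Fintype.sum_sum_type, Fin.sum_univ_four, Sum.swap]
    ring
  ext i j
  have h := hB (A *ᵥ Pi.single i 1) (A *ᵥ Pi.single j 1)
  rw [← mulVec_add, hM, hM, hM, ← hB] at h
  rw [← vecMul_transpose, ← dotProduct_mulVec, mulVec_mulVec, mulVec_mulVec] at h
  simpa using h

theorem lift_det {g : GL chevD4.Idx K} {M : GL I8 K} (h : Lift g M) : (M : Matrix I8 I8 K).det = 1 := by
  obtain ⟨z, -, rfl⟩ := h
  have hle : (DFour.checked K).coverHom.range ≤ (Matrix.GeneralLinearGroup.det (n := I8) (R := K)).ker := by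
    rw [Checked.coverHom_range, Subgroup.closure_le]
    rintro _ ⟨r, hr, t, rfl⟩
    rw [SetLike.mem_coe, MonoidHom.mem_ker, Units.ext_iff, Matrix.GeneralLinearGroup.val_det_apply, Units.val_one]
    obtain ⟨⟨a, b, s⟩, hq⟩ : ∃ q, DFour.rootsD[r]? = some q :=
      ⟨DFour.rootsD[r]'(by simpa [DFour.rootsD] using (show r < 24 from hr)), List.getElem?_eq_getElem _⟩
    obtain ⟨h1, h2⟩ := DFour.roots_adm r hr _ hq
    rw [Checked.gl_val, DFour.rmat_root hq]
    have hne : b.swap ≠ a.swap := fun e => h1 (Sum.swap_leftInverse.injective e).symm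
    have : DFour.eMat a b ((s : K) * t) = transvection a b ((s : K) * t) * transvection b.swap a.swap (-((s : K) * t)) := by
      simp only [DFour.eMat, transvection, add_mul, mul_add, one_mul, mul_one]
      rw [Matrix.single_mul_single_of_ne (c := _) (h := ne_swap b)]
      abel
    rw [this, det_mul, det_transvection_of_ne _ _ h1, det_transvection_of_ne _ _ hne, one_mul]
  have h1 := congrArg Units.val (MonoidHom.mem_ker.1 (hle ⟨z, rfl⟩))
  rwa [Matrix.GeneralLinearGroup.val_det_apply, Units.val_one] at h1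

/-! ### Rigidity -/

theorem single_commute {M : Matrix I8 I8 K} {a b : I8} (h1 : a ≠ b) (h2 : a ≠ b.swap) {s : K} (hs : s ≠ 0)
    (h : M * DFour.eMat a b s = DFour.eMat a b s * M) (k : I8) :
    M k a = (if k = a then M b b else 0) - (if k = b.swap then M a.swap b else 0) := by
  have e := congrFun (congrFun h k) b
  simp only [DFour.eMat, mul_add, add_mul, mul_one, one_mul, Matrix.add_apply] at e
  have hab : a.swap ≠ b := fun e => h2 (by rw [← e, Sum.swap_swap])
  rw [Matrix.mul_single_apply_same, Matrix.mul_single_apply_of_ne (hbj := fun e => hab e.symm)] at e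
  by_cases hk : k = a
  · subst hk
    rw [Matrix.single_mul_apply_same, Matrix.single_mul_apply_of_ne (h := h2)] at e
    rw [if_pos rfl, if_neg h2, sub_zero]
    exact mul_left_cancel₀ hs (by linear_combination e)
  · by_cases hk' : k = b.swap
    · subst hk'
      rw [Matrix.single_mul_apply_of_ne (h := hk), Matrix.single_mul_apply_same] at e
      rw [if_neg hk, if_pos rfl, zero_sub]
      exact mul_left_cancel₀ hs (by linear_combination e)
    · rw [Matrix.single_mul_apply_of_ne (h := hk), Matrix.single_mul_apply_of_ne (h := hk')] at e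
      rw [if_neg hk, if_neg hk', sub_zero]
      exact mul_left_cancel₀ hs (by linear_combination e)

theorem pick_table : ∀ k a : I8, k ≠ a → ∃ b : I8, a ≠ b ∧ a ≠ b.swap ∧ k ≠ b.swap := by decide +kernel

/-- Matrices commuting with all root matrices are scalar. -/
theorem scalar_of_commute {M : Matrix I8 I8 K}
    (h : ∀ r < chevD4.nroots, M * ((DFour.checked K).gl r 1 : Matrix I8 I8 K) =
      ((DFour.checked K).gl r 1 : Matrix I8 I8 K) * M) : ∃ c : K, M = c • 1 := by
  have key : ∀ a b : I8, a ≠ b → a ≠ b.swap → ∀ k, M k a =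
      (if k = a then M b b else 0) - (if k = b.swap then M a.swap b else 0) := by
    intro a b h1 h2
    obtain ⟨r, hr, ⟨a', b', s⟩, hq, hs, he⟩ := DFour.roots_cover a b h1 h2
    have hs' : (s : K) * (s : K) = 1 := by rw [← Int.cast_mul, hs, Int.cast_one]
    have hs0 : (s : K) ≠ 0 := left_ne_zero_of_mul (hs' ▸ one_ne_zero : (s : K) * (s : K) ≠ 0)
    have h' := h r hr
    rw [Checked.gl_val, DFour.rmat_root hq, mul_one] at h'
    rcases he with he | he <;> simp only [Prod.mk.injEq] at he <;> obtain ⟨rfl, rfl⟩ := he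
    · exact single_commute h1 h2 hs0 h'
    · rw [DFour.eMat_symm] at h'
      exact single_commute h1 h2 (neg_ne_zero.2 hs0) h'
  have hoff : ∀ k a, k ≠ a → M k a = 0 := by
    intro k a hka
    obtain ⟨b, h1, h2, h3⟩ := pick_table k a hka
    rw [key a b h1 h2 k, if_neg hka, if_neg h3, sub_zero]
  have hd : ∀ a b : I8, a ≠ b → a ≠ b.swap → M a a = M b b := fun a b h1 h2 => by
    rw [key a b h1 h2 a, if_pos rfl, if_neg h2, sub_zero]
  refine ⟨M (.inl 0) (.inl 0), Matrix.ext fun i j => ?_⟩
  by_cases hij : i = j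
  · subst hij
    rw [Matrix.smul_apply, one_apply_eq, smul_eq_mul, mul_one]
    by_cases h0 : i = .inl 0
    · rw [h0]
    by_cases h4 : i = .inr 0
    · rw [h4, hd (.inr 0) (.inl 1) (by decide) (by decide), hd (.inl 1) (.inl 0) (by decide) (by decide)]
    exact hd i (.inl 0) h0 h4
  · rw [hoff i j hij, Matrix.smul_apply, one_apply_ne hij, smul_zero]

theorem lift_one_scalar {M : GL I8 K} (h : Lift (1 : GL chevD4.Idx K) M) :
    ∃ c : K, c * c = 1 ∧ (M : Matrix I8 I8 K) = c • 1 := by
  have hgram := isometry_gram (lift_isometry h)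
  obtain ⟨z, hz, rfl⟩ := h
  have hzc : z ∈ Subgroup.center (chevD4.SteinbergCover K) := by
    rw [(coverSys S K).center_eq_ker witness_D4 (cover_gen S K), MonoidHom.mem_ker]
    exact hz
  obtain ⟨c, hc⟩ := scalar_of_commute (M := ((DFour.checked K).coverHom z : Matrix I8 I8 K)) fun r _ => by
    rw [← (DFour.checked K).coverHom_gen r 1, ← Units.val_mul, ← Units.val_mul, ← map_mul, ← map_mul,
      Subgroup.mem_center_iff.1 hzc]
  refine ⟨c, ?_, hc⟩
  rw [hc] at hgram
  have h' := congrFun (congrFun hgram (.inl 0)) (.inr 0)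
  simpa [gram, Matrix.mul_apply, Matrix.one_apply] using h'

theorem lift_unique {g : GL chevD4.Idx K} {M M' : GL I8 K} (h : Lift g M) (h' : Lift g M') :
    ∃ c : K, c * c = 1 ∧ (M : Matrix I8 I8 K) = c • (M' : Matrix I8 I8 K) := by
  have h1 := lift_mul h (lift_inv h')
  rw [mul_inv_cancel] at h1
  obtain ⟨c, hc, hM⟩ := lift_one_scalar h1
  refine ⟨c, hc, ?_⟩
  rw [show M = M * M'⁻¹ * M' by rw [inv_mul_cancel_right], Units.val_mul, hM, smul_mul_assoc, one_mul]

theorem eMat_trace {a b : I8} (h1 : a ≠ b) (s : K) : (DFour.eMat a b s).trace = 8 := by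
  have hne : b.swap ≠ a.swap := fun e => h1 (Sum.swap_leftInverse.injective e).symm
  rw [DFour.eMat, trace_add, trace_add, trace_one, Matrix.trace_single_eq_of_ne _ _ _ h1,
    Matrix.trace_single_eq_of_ne _ _ _ hne]
  simp

theorem gl_trace {r : ℕ} (hr : r < chevD4.nroots) (t : K) :
    ((DFour.checked K).gl r t : Matrix I8 I8 K).trace = 8 := by
  obtain ⟨⟨a, b, s⟩, hq⟩ : ∃ q, DFour.rootsD[r]? = some q :=
    ⟨DFour.rootsD[r]'(by simpa [DFour.rootsD] using (show r < 24 from hr)), List.getElem?_eq_getElem _⟩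
  rw [Checked.gl_val, DFour.rmat_root hq]
  exact eMat_trace (DFour.roots_adm r hr _ hq).1 _

/-- Lifts of elements permuting root elements do so exactly. -/
theorem lift_conj_root (h8 : (8 : K) ≠ 0) {g : GL chevD4.Idx K} {M : GL I8 K} (h : Lift g M) {r r' : ℕ}
    (hr : r < chevD4.nroots) (hr' : r' < chevD4.nroots) {t u : K}
    (hg : g * Sys.xG S K r t * g⁻¹ = Sys.xG S K r' u) :
    M * (DFour.checked K).gl r t * M⁻¹ = (DFour.checked K).gl r' u := by
  have h1 := lift_mul (lift_mul h (lift_root r t)) (lift_inv h)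
  rw [hg] at h1
  obtain ⟨c, -, hc⟩ := lift_unique h1 (lift_root r' u)
  have ht := congrArg Matrix.trace hc
  rw [Units.val_mul, Units.val_mul, Matrix.trace_mul_cycle, ← Units.val_mul M⁻¹ M, inv_mul_cancel,
    Units.val_one, one_mul, gl_trace hr, trace_smul, gl_trace hr', smul_eq_mul] at ht
  have hc1 : c = 1 := mul_right_cancel₀ h8 (by rw [one_mul]; exact ht.symm)
  exact Units.ext (by rw [hc, hc1, one_smul])

theorem lift_injective {g g' : GL chevD4.Idx K} {M : GL I8 K} (h : Lift g M) (h' : Lift g' M) :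
    g = g' := by
  haveI : IsSimpleGroup ↥(chevD4.group K) := (Cfsg.Agent.S1054.result chevD4 (by simp)).1
  have hp := proj_surjective S K (coverProj S K) (chevD4.scGen K) (coverProj_gen S K)
  have hN : ((DFour.checked K).coverHom.ker.map (coverProj S K)).Normal :=
    (MonoidHom.normal_ker _).map _ hp
  rcases hN.eq_bot_or_eq_top with hb | ht
  · have h1 := lift_mul h (lift_inv h')
    rw [mul_inv_cancel] at h1
    obtain ⟨z, hz, hz'⟩ := h1
    have hmem : coverProj S K z ∈ (DFour.checked K).coverHom.ker.map (coverProj S K) := ⟨z, hz', rfl⟩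
    rw [hb, Subgroup.mem_bot] at hmem
    rw [hmem, Subgroup.coe_one] at hz
    exact mul_inv_eq_one.1 hz.symm
  · exfalso
    obtain ⟨z, hz, hzr⟩ := (ht ▸ Subgroup.mem_top (coverProj S K (chevD4.scGen K 18 1)) :
      coverProj S K (chevD4.scGen K 18 1) ∈ (DFour.checked K).coverHom.ker.map (coverProj S K))
    have h1 : Lift (Sys.xG S K 18 1) (1 : GL I8 K) := ⟨z, by rw [hzr]; exact coverProj_gen S K 18 1, hz⟩
    obtain ⟨c, -, hc⟩ := lift_unique (lift_root 18 (1 : K)) h1
    have hr : DFour.rootsD[18]? = some (.inl 0, .inl 1, 1) := by decide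
    rw [Checked.gl_val, DFour.rmat_root hr, Units.val_one] at hc
    have := congrFun (congrFun hc (.inl 0)) (.inl 1)
    simp [DFour.eMat] at this

/-- The lift of order three. -/
theorem exists_lift_three {g : GL chevD4.Idx K} (hg : g ∈ chevD4.group K) (h3 : g ^ 3 = 1) :
    ∃ M, Lift g M ∧ M ^ 3 = 1 := by
  obtain ⟨M, hM⟩ := exists_lift hg
  refine ⟨M ^ 4, ?_, ?_⟩
  · have := lift_pow hM 4
    rwa [show g ^ 4 = g by rw [pow_succ, h3, one_mul]] at this
  · obtain ⟨c, hc, hc'⟩ := lift_one_scalar (h3 ▸ lift_pow hM 3)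
    rw [← pow_mul, show 4 * 3 = 3 * 4 from rfl, pow_mul]
    apply Units.ext
    rw [Units.val_pow_eq_pow_val, hc', _root_.smul_pow, one_pow, Units.val_one,
      show c ^ 4 = c * c * (c * c) by ring, hc, one_mul, one_smul]

theorem lift_unique_three {g : GL chevD4.Idx K} {M M' : GL I8 K} (h : Lift g M) (h' : Lift g M')
    (h3 : M ^ 3 = 1) (h3' : M' ^ 3 = 1) : M = M' := by
  obtain ⟨c, hc, hc'⟩ := lift_unique h h'
  have h1 := congrArg (fun X : GL I8 K => (X : Matrix I8 I8 K)) h3
  simp only [Units.val_pow_eq_pow_val, hc', _root_.smul_pow, Units.val_one] at h1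
  rw [← Units.val_pow_eq_pow_val, h3', Units.val_one] at h1
  have h2 : c ^ 3 = 1 := by simpa using congrFun (congrFun h1 (.inl 0)) (.inl 0)
  have hc1 : c = 1 := by
    rw [pow_three, hc, mul_one] at h2
    exact h2
  exact Units.ext (by rw [hc', hc1, one_smul])

end CfsgLib.D4AltSection
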