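import Cfsg.Agent.D4AltSection.Base
import Cfsg.Agent.D4AltSection.Rep

/-!
Elements of order three of `³D₄(q)`, three dividing `q - 1`, in the eight-dimensional representation: the fixed
space has dimension two or four.
-/

set_option autoImplicit false
set_option linter.unusedSimpArgs false

namespace CfsgLib.D4AltSection

open Cfsg Cfsg.Lie CfsgLib.Chevalley CfsgLib.ChevOrth Matrix

local notation "S" => sysD4

/-- A symmetric root function modulo three, on the first four coordinates. -/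
def eW (p : ZMod 3 × ZMod 3) : I8 → ZMod 3 :=
  Sum.elim ![2 * p.1 + p.2, p.1 + p.2, p.1, 0] ![-(2 * p.1 + p.2), -(p.1 + p.2), -p.1, 0]

theorem eW_add : ∀ p p' i, eW (p + p') i = eW p i + eW p' i := by decide +kernel

theorem eW_swap : ∀ p i, eW p i.swap = - eW p i := by decide +kernel

theorem eW_count : ∀ p : ZMod 3 × ZMod 3, p ≠ 0 →
    (Finset.univ.filter fun i => eW p i = 0).card = 2 ∨ (Finset.univ.filter fun i => eW p i = 0).card = 4 := by
  decide +kernel

theorem eW_inj : ∀ p p', (∀ i, eW p i = eW p' i) → p = p' := by decide +kernel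

/-- The two coordinates of weight zero. -/
def zeroPair (i : I8) : Bool := decide (i = .inl 3) || decide (i = .inr 3)

/-- The linear map with given images of the two unit vectors. -/
def th (u v p : ZMod 3 × ZMod 3) : ZMod 3 × ZMod 3 := (p.1 * u.1 + p.2 * v.1, p.1 * u.2 + p.2 * v.2)

theorem key_table : ∀ P p : ZMod 3 × ZMod 3,
    2 * p.1 + p.2 + (2 * p.1 + p.2) + -(2 * p.2) = eW P (.inl 0) - eW P (.inl 1) →
      -(2 * p.1 + p.2) + (2 * p.2 + 2 * p.2) + -(2 * p.1 + p.2) + -(2 * p.1 + p.2) =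
          eW P (.inl 1) - eW P (.inl 2) → P = p := by decide +kernel

theorem eW_sep : ∀ i j : I8, eW (1, 0) i = eW (1, 0) j → eW (0, 1) i = eW (0, 1) j →
    i = j ∨ (zeroPair i = true ∧ zeroPair j = true) := by decide +kernel

set_option synthInstance.maxSize 2000 in
theorem theta_table : ∀ u v : ZMod 3 × ZMod 3,
    th u v (th u v u) = (1, 0) → th u v (th u v v) = (0, 1) →
      (∀ i, ∃ j, eW u i = eW (1, 0) j ∧ eW v i = eW (0, 1) j) →
        (u = (1, 0) ∧ v = (0, 1)) ∨
          (∀ i, zeroPair i = false → ¬ (eW u i = eW (1, 0) i ∧ eW v i = eW (0, 1) i)) ∧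
          (∀ i, zeroPair i = false → ¬ (eW (th u v u) i = eW (1, 0) i ∧ eW (th u v v) i = eW (0, 1) i)) := by
  decide +kernel

theorem zero_row : ∀ u i j, zeroPair i = true → eW u i = eW (1, 0) j → ∀ v, eW v i = eW (0, 1) j →
    zeroPair j = true := by decide +kernel

variable {K : Type*} [Field K]

section Scalars

variable {ω : Kˣ} (hω : orderOf ω = 3)

/-- Powers of a cube root of unity. -/
def pw (ω : Kˣ) (e : ZMod 3) : Kˣ := ω ^ e.val

include hω in
theorem pw_add (a b : ZMod 3) : pw ω (a + b) = pw ω a * pw ω b := by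
  rw [pw, pw, pw, ← pow_add, pow_eq_pow_iff_modEq, hω]
  exact (ZMod.val_add a b).symm ▸ Nat.mod_modEq _ _

theorem pw_zero (ω : Kˣ) : pw ω 0 = 1 := by simp [pw]

include hω in
theorem pw_injective : Function.Injective (pw ω) := fun a b h => by
  rw [pw, pw, pow_eq_pow_iff_modEq, hω] at h
  exact ZMod.val_injective 3 (Nat.ModEq.eq_of_lt_of_lt h (ZMod.val_lt a) (ZMod.val_lt b))

include hω in
theorem pw_neg (a : ZMod 3) : pw ω (-a) = (pw ω a)⁻¹ :=
  eq_inv_of_mul_eq_one_left (by rw [← pw_add hω, neg_add_cancel, pw_zero])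

include hω in
theorem pw_cube (a : ZMod 3) : pw ω a ^ 3 = 1 := by
  have h : ω ^ 3 = 1 := hω ▸ pow_orderOf_eq_one ω
  rw [pw, ← pow_mul, mul_comm, pow_mul, h, one_pow]

include hω in
theorem pw_cube' (a : ZMod 3) : (pw ω a : K) ^ 3 = 1 := by
  rw [← Units.val_pow_eq_pow_val, pw_cube hω, Units.val_one]

include hω in
theorem exists_pw {x : K} (hx : x ^ 3 = 1) : ∃ e, x = (pw ω e : K) := by
  have hp : IsPrimitiveRoot (ω : K) 3 := by
    rw [IsPrimitiveRoot.coe_units_iff, ← hω]
    exact IsPrimitiveRoot.orderOf ω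
  obtain ⟨i, hi, rfl⟩ := hp.eq_pow_of_pow_eq_one hx
  exact ⟨(i : ZMod 3), by rw [pw, ZMod.val_natCast_of_lt hi, Units.val_pow_eq_pow_val]⟩

end Scalars

/-- The diagonal matrix of a symmetric root function. -/
noncomputable def dia (ω : Kˣ) (p : ZMod 3 × ZMod 3) : GL I8 K := DFour.dGL fun i => pw ω (eW p i)

theorem dia_val (ω : Kˣ) (p : ZMod 3 × ZMod 3) :
    (dia ω p : Matrix I8 I8 K) = diagonal fun i => (pw ω (eW p i) : K) := rfl

/-- The dimension of the fixed space of an element of order three. -/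
noncomputable def nn (M : Matrix I8 I8 K) : K := (8 + M.trace + (M * M).trace) / 3

theorem nn_diagonal (h3 : (3 : K) ≠ 0) (d : I8 → K) (hd : ∀ i, d i ^ 3 = 1) [DecidableEq K] :
    nn (diagonal d) = ((Finset.univ.filter fun i => d i = 1).card : K) := by
  have h8 : (8 : K) = ∑ _i : I8, (1 : K) := by simp
  rw [nn, diagonal_mul_diagonal, trace_diagonal, trace_diagonal, h8, ← Finset.sum_add_distrib,
    ← Finset.sum_add_distrib, div_eq_iff h3, Finset.card_filter, Nat.cast_sum, Finset.sum_mul]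
  refine Finset.sum_congr rfl fun i _ => ?_
  by_cases h : d i = 1
  · rw [if_pos h, h]; norm_num
  · rw [if_neg h, Nat.cast_zero, zero_mul]
    exact (mul_eq_zero.1 (show (d i - 1) * (1 + d i + d i * d i) = 0 by linear_combination hd i)).resolve_left
      (sub_ne_zero.2 h)

theorem nn_conj (M A : GL I8 K) : nn ((A * M * A⁻¹ : GL I8 K) : Matrix I8 I8 K) = nn (M : Matrix I8 I8 K) := by
  have e : ∀ X : GL I8 K, ((A * X * A⁻¹ : GL I8 K) : Matrix I8 I8 K).trace = (X : Matrix I8 I8 K).trace := by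
    intro X
    rw [Units.val_mul, Units.val_mul, Matrix.trace_mul_cycle, ← Units.val_mul A⁻¹ A, inv_mul_cancel,
      Units.val_one, one_mul]
  rw [nn, nn, ← Units.val_mul (A * M * A⁻¹), show A * M * A⁻¹ * (A * M * A⁻¹) = A * (M * M) * A⁻¹ by group, e, e,
    Units.val_mul]

theorem val_pow_three {M : GL I8 K} (h : M ^ 3 = 1) :
    (M : Matrix I8 I8 K) * (M : Matrix I8 I8 K) * (M : Matrix I8 I8 K) = 1 := by
  have h1 := congrArg Units.val h
  rwa [Units.val_pow_eq_pow_val, Units.val_one, pow_three, ← mul_assoc] at h1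

section Twisted

variable [Fintype K] {q : ℕ} (hq : IsPrimePow q) (hK : Fintype.card K = q ^ 3) (h3 : 3 ∣ q - 1)
  (h8 : (8 : K) ≠ 0) {ω : Kˣ} (hω : orderOf ω = 3)

include hq hK h3 h8 hω in
/-- An element of the twisted group with diagonal lift of order three. -/
theorem diag_lift {g : GL chevD4.Idx K} (hg : g ∈ twistedD4 K q) {M : GL I8 K} (hM : Lift g M) (hM3 : M ^ 3 = 1)
    (hdiag : ∀ i j, i ≠ j → (M : Matrix I8 I8 K) i j = 0) : ∃ p, M = dia ω p := by
  set m : I8 → K := fun i => (M : Matrix I8 I8 K) i i with hm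
  have hMd : (M : Matrix I8 I8 K) = diagonal m := Matrix.ext fun i j => by
    by_cases h : i = j
    · subst h; rw [diagonal_apply_eq]
    · rw [diagonal_apply_ne _ h, hdiag i j h]
  have hm3 : ∀ i, m i ^ 3 = 1 := fun i => by
    have h := val_pow_three hM3
    rw [hMd, diagonal_mul_diagonal, diagonal_mul_diagonal, ← diagonal_one] at h
    rw [pow_three, ← mul_assoc]
    exact congrFun (diagonal_injective h) i
  have hswap : ∀ i, m i * m i.swap = 1 := fun i => by
    have h := congrFun (congrFun (isometry_gram (lift_isometry hM)) i) i.swap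
    simpa [hMd, gram, Matrix.mul_apply, diagonal_transpose, diagonal_apply, mul_comm] using h
  choose e he using fun i => exists_pw hω (hm3 i)
  have hMG : M = DFour.dGL fun i => pw ω (e i) := Units.ext (by
    rw [hMd]; exact congrArg diagonal (funext he))
  have hesw : ∀ i, e i.swap = - e i := fun i => pw_injective hω (by
    refine (eq_inv_of_mul_eq_one_left (Units.ext ?_)).trans (pw_neg hω (e i)).symm
    rw [Units.val_mul, ← he, ← he, mul_comm, hswap, Units.val_one])
  obtain ⟨α, hα⟩ : ∃ α : ℕ → ZMod 3, ∀ r, ∀ t ∈ DFour.rootsD[r]?, α r = e t.1 - e t.2.1 :=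
    ⟨fun r => match DFour.rootsD[r]? with | some t => e t.1 - e t.2.1 | none => 0, fun r t ht => by
      simp only [Option.mem_def] at ht
      simp [ht]⟩
  have hsc : ∀ r < chevD4.nroots, g * Sys.xG S K r 1 * g⁻¹ = Sys.xG S K r (pw ω (α r) : K) := by
    intro r hr
    obtain ⟨⟨a, b, s⟩, hq'⟩ : ∃ t, DFour.rootsD[r]? = some t :=
      ⟨DFour.rootsD[r]'(by simpa [DFour.rootsD] using (show r < 24 from hr)), List.getElem?_eq_getElem _⟩
    have e1 : M * (DFour.checked K).gl r 1 * M⁻¹ = (DFour.checked K).gl r (pw ω (α r) : K) := by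
      rw [hMG]
      refine DFour.dGL_conj (fun i => by rw [hesw, pw_neg hω]) (a := a) (b := b) (t := (s : K)) ?_ ?_
      · rw [Checked.gl_val, DFour.rmat_root hq', mul_one]
      · rw [Checked.gl_val, DFour.rmat_root hq', hα r _ hq']
        congr 1
        rw [sub_eq_add_neg, pw_add hω, pw_neg hω, Units.val_mul]
        ring
    exact lift_injective (lift_mul (lift_mul hM (lift_root r 1)) (lift_inv hM)) (e1 ▸ lift_root r _)
  obtain ⟨t13, t12, -⟩ := scale_twist hq hK hg hsc
  have hfix : ∀ a : ZMod 3, (pw ω a : K) ^ q = pw ω a := fun a => pow_eq_self h3 hq.pos (by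
    exact pw_cube' hω _)
  rw [hfix] at t13 t12
  have a13 := pw_injective hω (Units.ext t13)
  have a12 := pw_injective hω (Units.ext t12)
  rw [hα 13 _ (show (Sum.inl 2, Sum.inl 3, (1 : ℤ)) ∈ DFour.rootsD[13]? by decide),
    hα 18 _ (show (Sum.inl 0, Sum.inl 1, (1 : ℤ)) ∈ DFour.rootsD[18]? by decide)] at a13
  rw [hα 12 _ (show (Sum.inl 2, Sum.inr 3, (1 : ℤ)) ∈ DFour.rootsD[12]? by decide),
    hα 13 _ (show (Sum.inl 2, Sum.inl 3, (1 : ℤ)) ∈ DFour.rootsD[13]? by decide)] at a12
  have key : ∀ e0 e1 e2 e3 : ZMod 3, e2 - e3 = e0 - e1 → e2 - -e3 = e2 - e3 →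
      eW (e2, e1 - e2) (.inl 0) = e0 ∧ eW (e2, e1 - e2) (.inl 1) = e1 ∧ eW (e2, e1 - e2) (.inl 2) = e2 ∧
        eW (e2, e1 - e2) (.inl 3) = e3 := by decide +kernel
  have hr3 := hesw (.inl 3)
  simp only [Sum.swap_inl] at hr3
  rw [hr3] at a12
  obtain ⟨k0, k1, k2, k3⟩ := key _ _ _ _ a13 a12
  refine ⟨(e (.inl 2), e (.inl 1) - e (.inl 2)), hMG.trans (congrArg DFour.dGL (funext fun i => congrArg (pw ω) ?_))⟩
  have hl : ∀ k : Fin 4, eW (e (.inl 2), e (.inl 1) - e (.inl 2)) (.inl k) = e (.inl k) := fun k => by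
    fin_cases k
    exacts [k0, k1, k2, k3]
  rcases i with k | k
  · exact (hl k).symm
  · have e1 := hesw (.inl k)
    have e2 := eW_swap (e (.inl 2), e (.inl 1) - e (.inl 2)) (.inl k)
    simp only [Sum.swap_inl] at e1 e2
    rw [e1, e2, hl]

include hω in
theorem dia_mul (p p' : ZMod 3 × ZMod 3) : dia ω (p + p') = (dia ω p * dia ω p' : GL I8 K) := by
  rw [dia, dia, dia, DFour.dGL_mul]
  congr 1
  funext i
  rw [Pi.mul_apply, eW_add, pw_add hω]

theorem dia_zero (ω : Kˣ) : dia ω (0 : ZMod 3 × ZMod 3) = (1 : GL I8 K) := by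
  have h : ∀ i, eW (0 : ZMod 3 × ZMod 3) i = 0 := by decide +kernel
  exact Units.ext (by rw [dia_val, Units.val_one, ← diagonal_one]; simp [h, pw_zero])

include hω in
theorem dia_injective : Function.Injective (dia (K := K) ω) := fun p p' h => by
  have h1 := congrArg Units.val h
  rw [dia_val, dia_val] at h1
  exact eW_inj p p' fun i => pw_injective hω (Units.ext (congrFun (diagonal_injective h1) i))

include hq hK h3 h8 hω in
theorem torus_lift {t : ↥(twistedD4 K q)} (ht : t ∈ torT K q) (ht3 : t ^ 3 = 1) :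
    ∃ p, Lift (t : GL chevD4.Idx K) (dia ω p) := by
  obtain ⟨c, hc⟩ := exists_tor ht
  have hg3 : (t : GL chevD4.Idx K) ^ 3 = 1 := by rw [← SubgroupClass.coe_pow, ht3]; rfl
  obtain ⟨M, hM, hM3⟩ := exists_lift_three (twisted_le_group hq hK t.2) hg3
  set V := fun r => (torusVal chevD4 c r : K) with hV
  have hV3 : ∀ r, r < chevD4.nroots → V r ^ 3 = 1 := fun r hr => by
    have h : tor chevD4 K (c ^ 3) = 1 := by rw [map_pow, hc, hg3]
    have h1 := congrArg (fun X : GL chevD4.Idx K =>
      (X : Matrix chevD4.Idx chevD4.Idx K) (Sum.inr ⟨r, hr⟩) (Sum.inr ⟨r, hr⟩)) h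
    simp only [Sys.tor_val S, dg, Matrix.diagonal_apply_eq, Sum.elim_inr, Units.val_one,
      Matrix.one_apply_eq, torusVal, Pi.pow_apply] at h1
    rw [← h1]
    simp only [hV, torusVal, ← Units.val_pow_eq_pow_val, ← Finset.prod_pow]
    congr 1
    refine Finset.prod_congr rfl fun j _ => ?_
    rw [← zpow_natCast, ← zpow_natCast (c j), ← _root_.zpow_mul, ← _root_.zpow_mul, mul_comm]
  obtain ⟨t13, t12, -⟩ := torus_twist hq hK (c := c) (hc ▸ t.2)
  choose f hf using fun r : Fin chevD4.nroots => exists_pw hω (hV3 r r.isLt)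
  set x := f ⟨18, by decide⟩
  set y := f ⟨14, by decide⟩
  refine ⟨(x, y), ?_⟩
  have hlin : ∀ r : Fin chevD4.nroots, ∀ a b s, DFour.rootsD[(r : ℕ)]? = some (a, b, s) →
      torusVal chevD4 c r = pw ω (eW (x, y) a - eW (x, y) b) := by
    intro r a b s hr
    have s0 : chevD4.simple 0 = 18 := by decide +kernel
    have s1 : chevD4.simple 1 = 14 := by decide +kernel
    have s2 : chevD4.simple 2 = 13 := by decide +kernel
    have s3 : chevD4.simple 3 = 12 := by decide +kernel
    have h18 : torusVal chevD4 c 18 = pw ω x := Units.ext (hf ⟨18, by decide⟩)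
    have h14 : torusVal chevD4 c 14 = pw ω y := Units.ext (hf ⟨14, by decide⟩)
    have h13 : torusVal chevD4 c 13 = pw ω x := Units.ext
      ((t13.trans (pow_eq_self h3 hq.pos (hV3 18 (by decide)))).trans (congrArg Units.val h18))
    have h12 : torusVal chevD4 c 12 = pw ω x := Units.ext
      ((t12.trans (pow_eq_self h3 hq.pos (hV3 13 (by decide)))).trans (congrArg Units.val h13))
    have hz : ∀ (u : ZMod 3) (n : ℤ), pw ω u ^ n = pw ω ((n : ZMod 3) * u) := by
      intro u n
      induction n using Int.induction_on with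
      | zero => simp [pw_zero]
      | succ n ih => rw [_root_.zpow_add_one, ih, ← pw_add hω]; push_cast; ring_nf
      | pred n ih => rw [_root_.zpow_sub_one, ih, ← pw_neg hω, ← pw_add hω]; push_cast; ring_nf
    rw [F4AltSection.torusVal_vec S c r.isLt, show chevD4.rank = 4 from rfl]
    simp only [Finset.prod_range_succ, Finset.prod_range_zero, one_mul, s0, s1, s2, s3, h18, h14, h13, h12, hz,
      ← pw_add hω]
    refine congrArg (pw ω) ?_
    have key : ∀ x y : ZMod 3, ∀ r : Fin 24, ∀ t ∈ DFour.rootsD[(r : ℕ)]?,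
        (tabD4.coord 4 0 r : ZMod 3) * x + (tabD4.coord 4 1 r : ZMod 3) * y + (tabD4.coord 4 2 r : ZMod 3) * x +
          (tabD4.coord 4 3 r : ZMod 3) * x = eW (x, y) t.1 - eW (x, y) t.2.1 := by decide +kernel
    exact key x y r _ hr
  have hcomm : ∀ r < chevD4.nroots, M * (DFour.checked K).gl r 1 * M⁻¹ =
      dia ω (x, y) * (DFour.checked K).gl r 1 * (dia ω (x, y))⁻¹ := by
    intro r hr
    obtain ⟨⟨a, b, s⟩, hr'⟩ : ∃ t, DFour.rootsD[r]? = some t :=
      ⟨DFour.rootsD[r]'(by simpa [DFour.rootsD] using (show r < 24 from hr)), List.getElem?_eq_getElem _⟩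
    have h1 := lift_conj_root h8 (t := (1 : K)) hM hr hr (by rw [← hc, Sys.tor_conj S K c hr, mul_one])
    rw [h1]
    symm
    refine DFour.dGL_conj (fun i => by rw [eW_swap, pw_neg hω]) (a := a) (b := b) (t := (s : K)) ?_ ?_
    · rw [Checked.gl_val, DFour.rmat_root hr', mul_one]
    · rw [Checked.gl_val, DFour.rmat_root hr', hlin ⟨r, hr⟩ a b s hr']
      congr 1
      rw [sub_eq_add_neg, pw_add hω, pw_neg hω, Units.val_mul]
      ring
  set D := dia (K := K) ω (x, y) with hD
  obtain ⟨k, hk⟩ := scalar_of_commute (M := ((D⁻¹ * M : GL I8 K) : Matrix I8 I8 K)) fun r hr => by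
    rw [← Units.val_mul, ← Units.val_mul]
    refine congrArg Units.val ?_
    calc D⁻¹ * M * (DFour.checked K).gl r 1 = D⁻¹ * (M * (DFour.checked K).gl r 1 * M⁻¹) * M := by group
      _ = (DFour.checked K).gl r 1 * (D⁻¹ * M) := by rw [hcomm r hr]; group
  have hMk : (M : Matrix I8 I8 K) = diagonal fun i => k * (pw ω (eW (x, y) i) : K) := by
    rw [show M = D * (D⁻¹ * M) by group, Units.val_mul, hk, mul_smul_comm, mul_one, hD, dia_val,
      ← diagonal_smul]
    rfl
  have hk3 : k ^ 3 = 1 := by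
    have h := val_pow_three hM3
    rw [hMk, diagonal_mul_diagonal, diagonal_mul_diagonal, ← diagonal_one] at h
    have h' := congrFun (diagonal_injective h) (.inl 3)
    have h0 : eW (x, y) (.inl 3) = 0 := rfl
    simp only [h0, pw_zero, Units.val_one, mul_one] at h'
    rw [pow_three, ← mul_assoc]; exact h'
  have hk2 : k * k = 1 := by
    have h := congrFun (congrFun (isometry_gram (lift_isometry hM)) (.inl 3)) (.inr 3)
    have h0 : eW (x, y) (.inl 3) = 0 := rfl
    have h0' : eW (x, y) (.inr 3) = 0 := rfl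
    simpa [hMk, gram, Matrix.mul_apply, diagonal_apply, h0, h0', pw_zero] using h
  have hk1 : k = 1 := by rw [pow_three, hk2, mul_one] at hk3; exact hk3
  have hMD : M = D := Units.ext (by rw [hMk, hk1, hD, dia_val]; simp)
  exact hMD ▸ hM

include hq hK in
theorem tor_exists (a b : Kˣ) (ha : a ^ q = a) (hb : b ^ q = b) :
    ∃ t : ↥(twistedD4 K q), t ∈ torT K q ∧ (t : GL chevD4.Idx K) = tor chevD4 K (fun j => if j = 1 then b else a) := by
  have hmem : tor chevD4 K (fun j => if j = 1 then b else a) ∈ TwistedLie.D4.TT K q :=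
    Subgroup.mem_map_of_mem _ (show (fun j => if j = 1 then b else a) ∈ TwistedLie.D4.Cset K q from
      ⟨hb, ha.symm, ha.symm, ha.symm⟩)
  exact ⟨⟨_, TwistedLie.D4.TT_mem hq hK hmem⟩,
    (show tor chevD4 K (fun j => if j = 1 then b else a) ∈ chevD4.diagonalSubgroup K by
      rw [Sys.diagonal_eq S]; exact ⟨_, rfl⟩), rfl⟩

include hq hK h3 h8 hω in
theorem torus_surj (p : ZMod 3 × ZMod 3) :
    ∃ t : ↥(twistedD4 K q), t ∈ torT K q ∧ t ^ 3 = 1 ∧ Lift (t : GL chevD4.Idx K) (dia ω p) := by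
  have hfix : ∀ u : ZMod 3, pw ω u ^ q = pw ω u := fun u => Units.ext (by
    rw [Units.val_pow_eq_pow_val]
    refine pow_eq_self h3 hq.pos ?_
    exact pw_cube' hω _)
  have hcube : ∀ u : ZMod 3, pw ω u ^ 3 = 1 := pw_cube hω
  obtain ⟨t, ht, hte⟩ := tor_exists hq hK (pw ω (2 * p.1 + p.2)) (pw ω (2 * p.2)) (hfix _) (hfix _)
  set c : ℕ → Kˣ := fun j => if j = 1 then pw ω (2 * p.2) else pw ω (2 * p.1 + p.2)
  have ht3 : t ^ 3 = 1 := Subtype.ext (by
    rw [SubgroupClass.coe_pow, hte, ← map_pow,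
      show c ^ 3 = 1 from funext fun j => by by_cases h : j = 1 <;> simp [c, h, hcube], map_one]
    rfl)
  obtain ⟨p', hp'⟩ := torus_lift hq hK h3 h8 hω ht ht3
  refine ⟨t, ht, ht3, ?_⟩
  suffices p' = p by rwa [this] at hp'
  have key : ∀ (r : ℕ) (hr : r < chevD4.nroots) a b s, DFour.rootsD[r]? = some (a, b, s) → (s : K) ≠ 0 →
      (torusVal chevD4 c r : K) = (pw ω (eW p' a - eW p' b) : K) := by
    intro r hr a b s hr' hs
    have h1 := lift_conj_root h8 (t := (1 : K)) hp' hr hr
      (u := (torusVal chevD4 c r : K)) (by rw [hte, Sys.tor_conj S K c hr, mul_one])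
    have h2 : dia ω p' * (DFour.checked K).gl r 1 * (dia ω p')⁻¹ =
        (DFour.checked K).gl r (pw ω (eW p' a - eW p' b) : K) := by
      refine DFour.dGL_conj (fun i => by rw [eW_swap, pw_neg hω]) (a := a) (b := b) (t := (s : K)) ?_ ?_
      · rw [Checked.gl_val, DFour.rmat_root hr', mul_one]
      · rw [Checked.gl_val, DFour.rmat_root hr']
        congr 1
        rw [sub_eq_add_neg, pw_add hω, pw_neg hω, Units.val_mul]
        ring
    have h3' := congrArg Units.val (h1.symm.trans h2)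
    rw [Checked.gl_val, Checked.gl_val, DFour.rmat_root hr', DFour.rmat_root hr'] at h3'
    have h4 := congrFun (congrFun h3' a) b
    obtain ⟨g1, g2⟩ := DFour.roots_adm r hr _ hr'
    simp [DFour.eMat, one_apply_ne g1, Matrix.single_apply_of_ne (i := b.swap) (j := a.swap) (i' := a) (j' := b)
      _ (fun e => g2 e.1.symm)] at h4
    exact h4.resolve_right hs
  have e18 := Units.ext (key 18 (by decide) (.inl 0) (.inl 1) 1 (by decide) (by simp))
  have e14 := Units.ext (key 14 (by decide) (.inl 1) (.inl 2) 1 (by decide) (by simp))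
  rw [TwistedLie.D4.tv18] at e18
  rw [TwistedLie.D4.tv14] at e14
  simp only [c, if_pos, if_neg (show (0 : ℕ) ≠ 1 by decide), if_neg (show (2 : ℕ) ≠ 1 by decide),
    if_neg (show (3 : ℕ) ≠ 1 by decide), zpow_two, ← pw_neg hω, ← pw_add hω] at e18 e14
  have k1 := pw_injective hω e18
  have k2 := pw_injective hω e14
  exact key_table p' p k1 k2

include hq hK h3 h8 hω in
/-- The fixed space of an element of order three normalizing the three-torsion of the torus. -/
theorem nn_of_normalizes (g : ↥(twistedD4 K q)) (hg1 : g ≠ 1) (M : GL I8 K) (hM : Lift (g : GL chevD4.Idx K) M)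
    (hM3 : M ^ 3 = 1) (hnorm : ∀ t ∈ torT K q, t ^ 3 = 1 → g * t * g⁻¹ ∈ torT K q) :
    nn (M : Matrix I8 I8 K) = 2 ∨ nn (M : Matrix I8 I8 K) = 4 := by
  classical
  have h3K : (3 : K) ≠ 0 := fun e => by
    have hp : (ω : K) ^ 3 = 1 := by rw [← Units.val_pow_eq_pow_val, ← hω, pow_orderOf_eq_one, Units.val_one]
    have h0 : ((ω : K) - 1) ^ 3 = 0 := by
      linear_combination hp - ((ω : K) ^ 2 - (ω : K)) * e
    rw [pow_eq_zero_iff three_ne_zero, sub_eq_zero] at h0
    rw [(Units.ext h0 : ω = 1), orderOf_one] at hω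
    norm_num at hω
  have hD3 : ∀ p, dia (K := K) ω p ^ 3 = 1 := fun p => by
    rw [pow_three, ← dia_mul hω, ← dia_mul hω,
      show p + (p + p) = 0 by revert p; decide, dia_zero]
  obtain ⟨t₁, ht₁, ht₁3, hL₁⟩ := torus_surj hq hK h3 h8 hω (1, 0)
  obtain ⟨t₂, ht₂, ht₂3, hL₂⟩ := torus_surj hq hK h3 h8 hω (0, 1)
  have hstep : ∀ t ∈ torT K q, t ^ 3 = 1 → ∀ p, Lift ((t : ↥(twistedD4 K q)) : GL chevD4.Idx K) (dia ω p) →
      ∃ p', M * dia ω p * M⁻¹ = dia ω p' := by
    intro t ht ht3 p hp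
    obtain ⟨p', hp'⟩ := torus_lift hq hK h3 h8 hω (hnorm t ht ht3) (by rw [conj_pow, ht3]; group)
    refine ⟨p', lift_unique_three ?_ hp' (by rw [conj_pow, hD3, mul_one, mul_inv_cancel]) (hD3 p')⟩
    have := lift_mul (lift_mul hM hp) (lift_inv hM)
    simpa using this
  obtain ⟨u, hu⟩ := hstep t₁ ht₁ ht₁3 _ hL₁
  obtain ⟨v, hv⟩ := hstep t₂ ht₂ ht₂3 _ hL₂
  set θ : ZMod 3 × ZMod 3 → ZMod 3 × ZMod 3 := th u v with hθ
  have hθD : ∀ p, M * dia ω p * M⁻¹ = dia ω (θ p) := by
    have hadd : ∀ p p', M * dia ω (p + p') * M⁻¹ = (M * dia ω p * M⁻¹) * (M * dia ω p' * M⁻¹) := fun p p' => by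
      rw [dia_mul hω]; group
    have h0 : M * dia ω 0 * M⁻¹ = dia ω 0 := by rw [dia_zero]; group
    intro p
    have key : ∀ p : ZMod 3 × ZMod 3, ∀ a b : ZMod 3 × ZMod 3,
        p = (p.1.val • (1, 0) + p.2.val • (0, 1) : ZMod 3 × ZMod 3) ∧
          (p.1 * a.1 + p.2 * b.1, p.1 * a.2 + p.2 * b.2) = p.1.val • a + p.2.val • b := by decide +kernel
    have hmul : ∀ (n : ℕ) a b, M * dia ω a * M⁻¹ = dia ω b → M * dia ω (n • a) * M⁻¹ = dia ω (n • b) := by
      intro n a b hab
      induction n with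
      | zero => simpa using h0
      | succ n ih => rw [succ_nsmul, succ_nsmul, hadd, ih, hab, ← dia_mul hω]
    conv_lhs => rw [(key p u v).1, hadd, hmul _ _ _ hu, hmul _ _ _ hv, ← dia_mul hω]
    exact congrArg _ (key p u v).2.symm
  have hθ3 : ∀ p, θ (θ (θ p)) = p := fun p => dia_injective hω (by
    rw [← hθD, ← hθD, ← hθD]
    calc M * (M * (M * dia ω p * M⁻¹) * M⁻¹) * M⁻¹ = M ^ 3 * dia ω p * (M ^ 3)⁻¹ := by rw [pow_three]; group
      _ = dia ω p := by rw [hM3, one_mul, inv_one, mul_one])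
  set A := (M : Matrix I8 I8 K) with hA
  -- non-zero entries respect the weights
  have hent : ∀ (N : GL I8 K) (θ' : ZMod 3 × ZMod 3 → ZMod 3 × ZMod 3),
      (∀ p, N * dia ω p * N⁻¹ = dia ω (θ' p)) → ∀ p i j, (N : Matrix I8 I8 K) i j ≠ 0 →
        eW (θ' p) i = eW p j := by
    intro N θ' hN p i j hij
    have h : N * dia ω p = dia ω (θ' p) * N := by rw [← hN p]; group
    have h1 := congrFun (congrFun (congrArg (fun X : GL I8 K => (X : Matrix I8 I8 K)) h) i) j
    simp only [Units.val_mul, dia_val, Matrix.mul_diagonal, Matrix.diagonal_mul] at h1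
    rw [mul_comm] at h1
    exact pw_injective hω (Units.ext (mul_right_cancel₀ hij h1).symm)
  have hu' : θ (1, 0) = u := by simp [hθ, th]
  have hv' : θ (0, 1) = v := by simp [hθ, th]
  have hrow : ∀ i, ∃ j, eW u i = eW (1, 0) j ∧ eW v i = eW (0, 1) j := fun i => by
    obtain ⟨j, hj⟩ : ∃ j, A i j ≠ 0 := by
      by_contra hall
      push Not at hall
      have h1 := congrFun (congrFun (val_pow_three hM3) i) i
      rw [mul_assoc, Matrix.mul_apply, one_apply_eq, ← hA] at h1
      simp [hall] at h1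
    exact ⟨j, hu' ▸ hent M θ hθD (1, 0) i j hj, hv' ▸ hent M θ hθD (0, 1) i j hj⟩
  -- the pair of weight zero
  have hz : ∀ i j, zeroPair i = true → A i j ≠ 0 → zeroPair j = true := fun i j hi hij =>
    zero_row u i j hi (hu' ▸ hent M θ hθD (1, 0) i j hij) v (hv' ▸ hent M θ hθD (0, 1) i j hij)
  have hblock : A (.inl 3) (.inr 3) = 0 ∧ A (.inr 3) (.inl 3) = 0 ∧ A (.inl 3) (.inl 3) ^ 3 = 1 ∧
      A (.inl 3) (.inl 3) * A (.inr 3) (.inr 3) = 1 := by
    have hrow0 : ∀ i j, zeroPair i = true → zeroPair j = false → A i j = 0 := fun i j hi hj => by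
      by_contra hne
      exact absurd (hz i j hi hne) (by rw [hj]; simp)
    have hmulz : ∀ (B : Matrix I8 I8 K) i j, zeroPair i = true →
        (A * B) i j = A i (.inl 3) * B (.inl 3) j + A i (.inr 3) * B (.inr 3) j := by
      intro B i j hi
      rw [Matrix.mul_apply, Fintype.sum_sum_type, Fin.sum_univ_four, Fin.sum_univ_four]
      simp [hrow0 i (.inl 0) hi rfl, hrow0 i (.inl 1) hi rfl, hrow0 i (.inl 2) hi rfl,
        hrow0 i (.inr 0) hi rfl, hrow0 i (.inr 1) hi rfl, hrow0 i (.inr 2) hi rfl]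
    have hcube := val_pow_three hM3
    rw [mul_assoc, ← hA] at hcube
    have c00 := congrFun (congrFun hcube (.inl 3)) (.inl 3)
    have c01 := congrFun (congrFun hcube (.inl 3)) (.inr 3)
    rw [hmulz _ _ _ rfl, hmulz _ _ _ rfl, hmulz _ _ _ rfl, one_apply_eq] at c00
    rw [hmulz _ _ _ rfl, hmulz _ _ _ rfl, hmulz _ _ _ rfl, one_apply_ne (by decide)] at c01
    -- the transposed isometry
    have hinv : (M : Matrix I8 I8 K) * gram K * (M : Matrix I8 I8 K)ᵀ = gram K := by
      have hg2 : gram K * gram K = 1 := by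
        ext i j
        simp only [gram, Matrix.mul_apply, Matrix.of_apply, ite_mul, one_mul, zero_mul, Finset.sum_ite_eq',
          Finset.mem_univ, if_true, Sum.swap_swap, Matrix.one_apply]
        simp [eq_comm]
      have h1 := isometry_gram (lift_isometry hM)
      have h2 : gram K * (M : Matrix I8 I8 K)ᵀ * gram K * (M : Matrix I8 I8 K) = 1 := by
        rw [mul_assoc (gram K), mul_assoc (gram K), h1, hg2]
      have h3' := mul_eq_one_comm.1 h2
      calc _ = (M : Matrix I8 I8 K) * (gram K * (M : Matrix I8 I8 K)ᵀ * gram K) * gram K := by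
            simp only [mul_assoc, hg2, mul_one]
        _ = gram K := by rw [h3', one_mul]
    have f00 := congrFun (congrFun hinv (.inl 3)) (.inl 3)
    have f01 := congrFun (congrFun hinv (.inl 3)) (.inr 3)
    have f11 := congrFun (congrFun hinv (.inr 3)) (.inr 3)
    rw [mul_assoc, hmulz _ _ _ rfl] at f00 f01 f11
    simp [gram, Matrix.mul_apply, Sum.swap] at f00 f01 f11
    set a := A (.inl 3) (.inl 3)
    set b := A (.inl 3) (.inr 3)
    set c := A (.inr 3) (.inl 3)
    set d := A (.inr 3) (.inr 3)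
    have h2 : (2 : K) ≠ 0 := fun e => h8 (by linear_combination (4 : K) * e)
    have g00 : a * b = 0 := mul_left_cancel₀ h2 (by linear_combination f00)
    have g11 : c * d = 0 := mul_left_cancel₀ h2 (by linear_combination f11)
    have hb0 : b = 0 := by
      by_contra hb
      have ha : a = 0 := (mul_eq_zero.1 g00).resolve_right hb
      rw [ha] at c00 f01
      simp only [zero_mul, zero_add, mul_zero, add_zero] at c00 f01
      have hc : c ≠ 0 := fun e => one_ne_zero (α := K) (f01.symm.trans (mul_eq_zero_of_right b e))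
      have hd : d = 0 := (mul_eq_zero.1 g11).resolve_left hc
      rw [hd] at c00
      simp at c00
    rw [hb0] at c00 f01
    simp only [zero_mul, add_zero, zero_add, mul_zero] at c00 f01
    refine ⟨hb0, ?_, by rw [pow_three]; linear_combination c00, by linear_combination f01⟩
    exact (mul_eq_zero.1 g11).resolve_right (right_ne_zero_of_mul (f01 ▸ one_ne_zero))
  obtain ⟨hb0, hc0, ha3, had⟩ := hblock
  rcases theta_table u v ((congrArg (fun z => θ (θ z)) hu').symm.trans (hθ3 (1, 0)))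
    ((congrArg (fun z => θ (θ z)) hv').symm.trans (hθ3 (0, 1))) hrow with ⟨hu1, hv1⟩ | ⟨hne1, hne2⟩
  · -- diagonal
    have hdiag : ∀ i j, i ≠ j → A i j = 0 := fun i j hij => by
      by_contra hne
      rcases eW_sep i j (by have := hent M θ hθD (1, 0) i j hne; rwa [hu', hu1] at this)
          (by have := hent M θ hθD (0, 1) i j hne; rwa [hv', hv1] at this) with e | ⟨zi, zj⟩
      · exact hij e
      · simp [zeroPair] at zi zj
        rcases zi with rfl | rfl <;> rcases zj with rfl | rfl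
        exacts [hij rfl, hne hb0, hne hc0, hij rfl]
    obtain ⟨p, rfl⟩ := diag_lift hq hK h3 h8 hω g.2 hM hM3 hdiag
    have hp : p ≠ 0 := fun e => hg1 (Subtype.ext (by
      rw [e, dia_zero] at hM
      rw [Subgroup.coe_one]
      exact lift_injective hM lift_one))
    have hn := nn_diagonal h3K (fun i => (pw ω (eW p i) : K)) fun i => pw_cube' hω _
    rw [← dia_val] at hn
    rw [hA, hn]
    have hf : (Finset.univ.filter fun i => (pw ω (eW p i) : K) = 1) = Finset.univ.filter fun i => eW p i = 0 :=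
      Finset.filter_congr fun i _ => by rw [Units.val_eq_one, ← pw_zero ω, (pw_injective hω).eq_iff]
    rw [hf]
    rcases eW_count p hp with h | h <;> rw [h] <;> simp
  · -- cyclic
    have hoff : ∀ i, zeroPair i = false → A i i = 0 ∧ (A * A) i i = 0 := fun i hi => by
      refine ⟨?_, ?_⟩ <;> by_contra hne
      · exact hne1 i hi ⟨hu' ▸ hent M θ hθD (1, 0) i i hne, hv' ▸ hent M θ hθD (0, 1) i i hne⟩
      · have h2 : ∀ p, M * M * dia ω p * (M * M)⁻¹ = dia ω (θ (θ p)) := fun p => by
          rw [← hθD, ← hθD]; group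
        rw [hA, ← Units.val_mul] at hne
        refine hne2 i hi ⟨?_, ?_⟩
        · have := hent (M * M) _ h2 (1, 0) i i hne; rwa [hu'] at this
        · have := hent (M * M) _ h2 (0, 1) i i hne; rwa [hv'] at this
    set a := A (.inl 3) (.inl 3)
    set d := A (.inr 3) (.inr 3)
    have hd : d = a * a := by linear_combination (a * a) * had - d * ha3
    have ht1 : A.trace = a + d := by
      simp only [Matrix.trace, Matrix.diag, Fintype.sum_sum_type, Fin.sum_univ_four]
      simp [(hoff (.inl 0) rfl).1, (hoff (.inl 1) rfl).1, (hoff (.inl 2) rfl).1, (hoff (.inr 0) rfl).1,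
        (hoff (.inr 1) rfl).1, (hoff (.inr 2) rfl).1, a, d]
    have hz0 : ∀ i j, zeroPair i = true → zeroPair j = false → A i j = 0 := fun i j hi hj => by
      by_contra hne
      exact absurd (hz i j hi hne) (by rw [hj]; simp)
    have hAA : (A * A) (.inl 3) (.inl 3) = a * a ∧ (A * A) (.inr 3) (.inr 3) = d * d := by
      constructor <;> rw [Matrix.mul_apply, Fintype.sum_sum_type, Fin.sum_univ_four, Fin.sum_univ_four]
      · simp [hz0 (.inl 3) (.inl 0) rfl rfl, hz0 (.inl 3) (.inl 1) rfl rfl, hz0 (.inl 3) (.inl 2) rfl rfl,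
          hz0 (.inl 3) (.inr 0) rfl rfl, hz0 (.inl 3) (.inr 1) rfl rfl, hz0 (.inl 3) (.inr 2) rfl rfl, hb0, a]
      · simp [hz0 (.inr 3) (.inl 0) rfl rfl, hz0 (.inr 3) (.inl 1) rfl rfl, hz0 (.inr 3) (.inl 2) rfl rfl,
          hz0 (.inr 3) (.inr 0) rfl rfl, hz0 (.inr 3) (.inr 1) rfl rfl, hz0 (.inr 3) (.inr 2) rfl rfl, hc0, d]
    have ht2 : (A * A).trace = a * a + d * d := by
      simp only [Matrix.trace, Matrix.diag, Fintype.sum_sum_type, Fin.sum_univ_four]
      simp [(hoff (.inl 0) rfl).2, (hoff (.inl 1) rfl).2, (hoff (.inl 2) rfl).2, (hoff (.inr 0) rfl).2,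
        (hoff (.inr 1) rfl).2, (hoff (.inr 2) rfl).2, hAA.1, hAA.2]
    rw [nn, ht1, ht2, hd, div_eq_iff h3K, div_eq_iff h3K]
    by_cases ha1 : a = 1
    · right; rw [ha1]; norm_num
    · left
      have h0 := (mul_eq_zero.1 (show (a - 1) * (1 + a + a * a) = 0 by linear_combination ha3)).resolve_left
        (sub_ne_zero.2 ha1)
      linear_combination 2 * h0 + a * ha3

end Twisted

end CfsgLib.D4AltSection
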