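import Cfsg.Agent.D4AltSection.Classes

/-!
No elementary abelian configuration of order nine in the eight-dimensional representation, in characteristic five.
-/

set_option autoImplicit false
set_option linter.unusedSimpArgs false

namespace CfsgLib.D4AltSection

open Matrix

/-- The eight non-zero weights. -/
def wlist : Fin 8 → ZMod 3 × ZMod 3 := ![(1, 0), (2, 0), (0, 1), (0, 2), (1, 1), (2, 2), (1, 2), (2, 1)]

theorem wlist_mem : ∀ p : ZMod 3 × ZMod 3, p ≠ 0 → ∃ k, wlist k = p := by decide +kernel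

theorem wlist_inj : Function.Injective wlist := by decide +kernel

/-- The permutation induced by inverting the second generator. -/
def flip8 : Equiv.Perm (Fin 8) := Equiv.swap 2 3 * Equiv.swap 4 6 * Equiv.swap 5 7

theorem flip8_sign : Equiv.Perm.sign flip8 = -1 := by decide +kernel

theorem flip8_spec : ∀ j k : Fin 8,
    (wlist j).1 = (wlist k).1 → (wlist j).2 = -(wlist k).2 → k = flip8 j := by decide +kernel

theorem pair_spec : ∀ j k : Fin 8, wlist j + wlist k = 0 → j / 2 = k / 2 ∧ j ≠ k := by decide +kernel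

theorem pair_spec' : ∀ k l : Fin 8, wlist k + wlist l = 0 →
    k = l + 1 ∧ (l : ℕ) % 2 = 0 ∨ l = k + 1 ∧ (k : ℕ) % 2 = 0 := by decide +kernel

theorem line_sum : ∀ x y : ZMod 3, (if x = 0 then 1 else 0) + (if y = 0 then 1 else 0) +
    (if x + y = 0 then 1 else 0) + (if x + 2 * y = 0 then (1 : ℕ) else 0) =
      1 + 3 * (if x = 0 ∧ y = 0 then 1 else 0) := by decide +kernel

theorem line_unique : ∀ p p' : ZMod 3 × ZMod 3, p ≠ 0 → p' ≠ 0 →
    ((p.1 = 0 ∧ p'.1 = 0) ∨ (p.2 = 0 ∧ p'.2 = 0) ∨ (p.1 + p.2 = 0 ∧ p'.1 + p'.2 = 0) ∨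
      (p.1 + 2 * p.2 = 0 ∧ p'.1 + 2 * p'.2 = 0)) → p = p' ∨ p = -p' := by decide +kernel

variable {K : Type*} [Field K]

theorem exists_joint {n : Type*} [Fintype n] [DecidableEq n] (h3 : (3 : K) ≠ 0) {ω : K} (hω : ω ^ 2 + ω + 1 = 0)
    (A B : Matrix n n K) (hA : A * A * A = 1) (hB : B * B * B = 1) (hAB : A * B = B * A) :
    ∃ (P Q : Matrix n n K) (c d : n → K), Q * P = 1 ∧ P * Q = 1 ∧ P * A * Q = diagonal c ∧ P * B * Q = diagonal d ∧
      (∀ i, c i ^ 3 = 1) ∧ ∀ i, d i ^ 3 = 1 := by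
  classical
  have hω3 : ω * ω * ω = 1 := by linear_combination (ω - 1) * hω
  let proj : Matrix n n K → K → Matrix n n K := fun X μ => (3 : K)⁻¹ • (1 + (μ * μ) • X + μ • (X * X))
  have hproj : ∀ X : Matrix n n K, X * X * X = 1 → ∀ μ : K, μ * μ * μ = 1 → X * proj X μ = μ • proj X μ := by
    intro X hX μ hμ
    simp only [proj, mul_smul_comm, mul_add, mul_one, ← mul_assoc, hX, smul_comm μ, smul_add, smul_smul,
      show μ * (μ * μ) = 1 by rw [← mul_assoc, hμ], one_smul]
    rw [show (3 : K)⁻¹ * μ * μ * μ = (3 : K)⁻¹ by linear_combination (3 : K)⁻¹ * hμ]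
    abel
  have hsum : ∀ X : Matrix n n K, proj X 1 + proj X ω + proj X (ω * ω) = 1 := by
    intro X
    have e1 : (1 : K) * 1 + ω * ω + ω * ω * (ω * ω) = 0 := by linear_combination hω + ω * hω3
    have e2 : (1 : K) + ω + ω * ω = 0 := by linear_combination hω
    calc proj X 1 + proj X ω + proj X (ω * ω)
        = (3 : K)⁻¹ • ((3 : K) • (1 : Matrix n n K) + ((1 : K) * 1 + ω * ω + ω * ω * (ω * ω)) • X +
          ((1 : K) + ω + ω * ω) • (X * X)) := by simp only [proj]; module
      _ = 1 := by rw [e1, e2, zero_smul, zero_smul, add_zero, add_zero, smul_smul, inv_mul_cancel₀ h3, one_smul]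
  have hcomm : ∀ μ, proj A μ * B = B * proj A μ := by
    intro μ
    simp only [proj, smul_mul_assoc, add_mul, one_mul, mul_smul_comm, mul_add, mul_one]
    rw [hAB, mul_assoc A A B, hAB, ← mul_assoc A B A, hAB, mul_assoc B A A]
  set R : Finset K := {1, ω, ω * ω}
  have hR : ∀ μ ∈ R, μ * μ * μ = 1 := by
    intro μ hμ
    simp only [R, Finset.mem_insert, Finset.mem_singleton] at hμ
    rcases hμ with rfl | rfl | rfl
    · ring
    · exact hω3
    · linear_combination (ω * ω * ω + 1) * hω3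
  have hs : ⊤ ≤ Submodule.span K
      {v : n → K | ∃ μ ∈ R, ∃ ν ∈ R, A *ᵥ v = μ • v ∧ B *ᵥ v = ν • v} := by
    intro v _
    have hin : ∀ μ ∈ R, ∀ ν ∈ R, (proj A μ * proj B ν) *ᵥ v ∈
        Submodule.span K {v : n → K | ∃ μ ∈ R, ∃ ν ∈ R, A *ᵥ v = μ • v ∧ B *ᵥ v = ν • v} := by
      intro μ hμ ν hν
      refine Submodule.subset_span ⟨μ, hμ, ν, hν, ?_, ?_⟩
      · rw [mulVec_mulVec, ← mul_assoc, hproj A hA μ (hR μ hμ), smul_mul_assoc, smul_mulVec]
      · rw [mulVec_mulVec, ← mul_assoc, ← hcomm, mul_assoc, hproj B hB ν (hR ν hν), mul_smul_comm, smul_mulVec]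
    have h1 : v = ((proj A 1 + proj A ω + proj A (ω * ω)) * (proj B 1 + proj B ω + proj B (ω * ω))) *ᵥ v := by
      rw [hsum, hsum, one_mul, one_mulVec]
    rw [h1]
    simp only [add_mul, mul_add, add_mulVec]
    have m1 : (1 : K) ∈ R := by simp [R]
    have m2 : ω ∈ R := by simp [R]
    have m3 : ω * ω ∈ R := by simp [R]
    exact Submodule.add_mem _ (Submodule.add_mem _
      (Submodule.add_mem _ (Submodule.add_mem _ (hin _ m1 _ m1) (hin _ m2 _ m1)) (hin _ m3 _ m1))
      (Submodule.add_mem _ (Submodule.add_mem _ (hin _ m1 _ m2) (hin _ m2 _ m2)) (hin _ m3 _ m2)))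
      (Submodule.add_mem _ (Submodule.add_mem _ (hin _ m1 _ m3) (hin _ m2 _ m3)) (hin _ m3 _ m3))
  let bas := Module.Basis.ofSpan hs
  haveI := Module.Finite.finite_basis bas
  haveI := Fintype.ofFinite ↑((linearIndepOn_empty K id).extend (Set.empty_subset
    {v : n → K | ∃ μ ∈ R, ∃ ν ∈ R, A *ᵥ v = μ • v ∧ B *ᵥ v = ν • v}))
  have hcard := (Module.finrank_eq_card_basis bas).symm.trans (Module.finrank_fintype_fun_eq_card K)
  let bn := bas.reindex (Fintype.equivOfCardEq hcard)
  have hμ : ∀ i, ∃ μ ν : K, μ ∈ R ∧ ν ∈ R ∧ A *ᵥ bn i = μ • bn i ∧ B *ᵥ bn i = ν • bn i := fun i => by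
    obtain ⟨μ, h1, ν, h2, h3, h4⟩ := Module.Basis.ofSpan_subset hs ⟨(Fintype.equivOfCardEq hcard).symm i, rfl⟩
    simp only [bn, Module.Basis.reindex_apply, bas]
    exact ⟨μ, ν, h1, h2, h3, h4⟩
  choose c d hc hd hAc hBd using hμ
  let Q : Matrix n n K := Matrix.of fun i j => bn j i
  have hQ : IsUnit Q := Matrix.linearIndependent_cols_iff_isUnit.1 bn.linearIndependent
  have hdet : IsUnit Q.det := (Matrix.isUnit_iff_isUnit_det _).1 hQ
  have key : ∀ (X : Matrix n n K) (e : n → K), (∀ j, X *ᵥ bn j = e j • bn j) → Q⁻¹ * X * Q = diagonal e := by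
    intro X e he
    have hXQ : X * Q = Q * diagonal e := by
      ext i j
      rw [mul_diagonal]
      have h := congrFun (he j) i
      simp only [Matrix.mulVec, dotProduct, Pi.smul_apply, smul_eq_mul] at h
      simp only [Matrix.mul_apply, Q, Matrix.of_apply]
      rw [h, mul_comm]
    rw [Matrix.mul_assoc, hXQ, ← Matrix.mul_assoc, Matrix.nonsing_inv_mul _ hdet, Matrix.one_mul]
  exact ⟨Q⁻¹, Q, c, d, Matrix.mul_nonsing_inv _ hdet, Matrix.nonsing_inv_mul _ hdet, key A c hAc, key B d hBd,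
    fun i => by rw [pow_three, ← mul_assoc]; exact hR _ (hc i),
    fun i => by rw [pow_three, ← mul_assoc]; exact hR _ (hd i)⟩

theorem trace_conj {n : Type*} [Fintype n] [DecidableEq n] {P Q : Matrix n n K} (hQP : Q * P = 1)
    (X : Matrix n n K) : (P * X * Q).trace = X.trace := by
  rw [Matrix.trace_mul_cycle, hQP, Matrix.one_mul]

/-- The configuration is impossible. -/
theorem no_config [CharP K 5] {ω : Kˣ} (hω : orderOf ω = 3) (A B V : Matrix I8 I8 K)
    (hA : A * A * A = 1) (hB : B * B * B = 1) (hAB : A * B = B * A) (hVA : V * A = A * V) (hVB : V * B = B * B * V)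
    (hgA : Aᵀ * gram K * A = gram K) (hgB : Bᵀ * gram K * B = gram K) (hgV : Vᵀ * gram K * V = gram K)
    (hdet : V.det = 1) (hna : nn A = 2 ∨ nn A = 4) (hab : nn B = nn A)
    (hnc : nn (A * B) = 2 ∨ nn (A * B) = 4) (hcd : nn (A * (B * B)) = nn (A * B)) : False := by
  classical
  have cast5 : ∀ a b : ℕ, (a : K) = (b : K) ↔ a % 5 = b % 5 := fun a b => CharP.natCast_eq_natCast K 5
  have h3 : (3 : K) ≠ 0 := fun e => by
    have := (cast5 3 0).1 (by simpa using e)
    norm_num at this
  have h2 : (2 : K) ≠ 0 := fun e => by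
    have := (cast5 2 0).1 (by simpa using e)
    norm_num at this
  have hω2 : (ω : K) ^ 2 + (ω : K) + 1 = 0 := by
    have hne : (ω : K) ≠ 1 := fun e => by
      rw [Units.val_eq_one] at e
      rw [e, orderOf_one] at hω
      norm_num at hω
    have hp : (ω : K) ^ 3 = 1 := by rw [← Units.val_pow_eq_pow_val, ← hω, pow_orderOf_eq_one, Units.val_one]
    exact (mul_eq_zero.1 (show ((ω : K) - 1) * ((ω : K) ^ 2 + (ω : K) + 1) = 0 by
      linear_combination hp)).resolve_left (sub_ne_zero.2 hne)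
  obtain ⟨P, Q, c, d, hQP, hPQ, hPA, hPB, hc3, hd3⟩ := exists_joint h3 hω2 A B hA hB hAB
  choose x hx using fun i => exists_pw hω (hc3 i)
  choose y hy using fun i => exists_pw hω (hd3 i)
  have hmulc : ∀ X Y, P * (X * Y) * Q = (P * X * Q) * (P * Y * Q) := fun X Y => by
    simp only [Matrix.mul_assoc]
    rw [← Matrix.mul_assoc Q P, hQP, Matrix.one_mul]
  let w : ZMod 3 × ZMod 3 → I8 → ZMod 3 := fun l i => x i * l.1 + y i * l.2
  let cnt : ZMod 3 × ZMod 3 → ℕ := fun l => (Finset.univ.filter fun i => w l i = 0).card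
  have hnn : ∀ (X : Matrix I8 I8 K) l, (∀ i, (P * X * Q) i i = (pw ω (w l i) : K)) →
      (∀ i j, i ≠ j → (P * X * Q) i j = 0) → nn X = (cnt l : K) := by
    intro X l hd hoff
    have hX : P * X * Q = diagonal fun i => (pw ω (w l i) : K) := Matrix.ext fun i j => by
      by_cases h : i = j
      · subst h; rw [hd, diagonal_apply_eq]
      · rw [hoff i j h, diagonal_apply_ne _ h]
    have h1 : nn X = nn (diagonal fun i => (pw ω (w l i) : K)) := by
      rw [← hX, nn, nn, ← hmulc, trace_conj hQP, trace_conj hQP]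
    rw [h1, nn_diagonal h3 _ fun i => pw_cube' hω _]
    exact congrArg (fun s : Finset I8 => (s.card : K)) (Finset.filter_congr fun i _ => by
      rw [Units.val_eq_one, ← pw_zero ω, (pw_injective hω).eq_iff])
  have hdiag : ∀ (X : Matrix I8 I8 K) l, P * X * Q = diagonal (fun i => (pw ω (w l i) : K)) →
      nn X = (cnt l : K) := fun X l hX => hnn X l (fun i => by rw [hX, diagonal_apply_eq])
    (fun i j h => by rw [hX, diagonal_apply_ne _ h])
  have na := hdiag A (1, 0) (by rw [hPA]; congr 1; funext i; rw [hx i]; simp [w])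
  have nb := hdiag B (0, 1) (by rw [hPB]; congr 1; funext i; rw [hy i]; simp [w])
  have nc := hdiag (A * B) (1, 1) (by
    rw [hmulc, hPA, hPB, diagonal_mul_diagonal]; congr 1; funext i
    rw [hx i, hy i, ← Units.val_mul, ← pw_add hω]; simp [w])
  have ne := hdiag (A * (B * B)) (1, 2) (by
    rw [hmulc, hmulc, hPA, hPB, diagonal_mul_diagonal, diagonal_mul_diagonal]; congr 1; funext i
    rw [hx i, hy i, ← Units.val_mul, ← Units.val_mul, ← pw_add hω, ← pw_add hω]; simp [w]; ring_nf)
  have hsum : cnt (1, 0) + cnt (0, 1) + cnt (1, 1) + cnt (1, 2) =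
      8 + 3 * (Finset.univ.filter fun i => x i = 0 ∧ y i = 0).card := by
    simp only [cnt, Finset.card_filter, Finset.mul_sum, ← Finset.sum_add_distrib]
    have h8 : (8 : ℕ) = ∑ _i : I8, 1 := by simp
    rw [h8, ← Finset.sum_add_distrib]
    refine Finset.sum_congr rfl fun i _ => ?_
    simp only [w, mul_one, mul_zero, add_zero, zero_add, mul_comm (y i) 2]
    exact line_sum (x i) (y i)
  set d0 := (Finset.univ.filter fun i => x i = 0 ∧ y i = 0).card with hd0
  have hle : ∀ l, d0 ≤ cnt l ∧ cnt l ≤ 8 := fun l => by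
    refine ⟨Finset.card_le_card fun i hi => ?_, (Finset.card_le_univ _).trans (by simp)⟩
    simp only [Finset.mem_filter, Finset.mem_univ, true_and] at hi ⊢
    simp [w, hi.1, hi.2]
  have ha5 : cnt (1, 0) % 5 = 2 ∨ cnt (1, 0) % 5 = 4 := by
    rw [na] at hna
    exact hna.imp (fun h => (cast5 _ 2).1 (by simpa using h)) (fun h => (cast5 _ 4).1 (by simpa using h))
  have hc5 : cnt (1, 1) % 5 = 2 ∨ cnt (1, 1) % 5 = 4 := by
    rw [nc] at hnc
    exact hnc.imp (fun h => (cast5 _ 2).1 (by simpa using h)) (fun h => (cast5 _ 4).1 (by simpa using h))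
  rw [na, nb, cast5] at hab
  rw [nc, ne, cast5] at hcd
  obtain ⟨h0, k1, k2, k3, k4⟩ : d0 = 0 ∧ cnt (1, 0) = 2 ∧ cnt (0, 1) = 2 ∧ cnt (1, 1) = 2 ∧ cnt (1, 2) = 2 := by
    have := hle (1, 0); have := hle (0, 1); have := hle (1, 1); have := hle (1, 2)
    omega
  set pt : I8 → ZMod 3 × ZMod 3 := fun i => (x i, y i) with hpt
  have hne0 : ∀ i, pt i ≠ 0 := fun i e => by
    rw [hd0, Finset.card_eq_zero, Finset.filter_eq_empty_iff] at h0
    exact h0 (Finset.mem_univ i) ⟨congrArg Prod.fst e, congrArg Prod.snd e⟩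
  set G := Qᵀ * gram K * Q with hG
  have hgc : ∀ X : Matrix I8 I8 K, Xᵀ * gram K * X = gram K → (P * X * Q)ᵀ * G * (P * X * Q) = G := by
    intro X hX
    calc (P * X * Q)ᵀ * G * (P * X * Q)
        = Qᵀ * (Xᵀ * ((Pᵀ * Qᵀ) * gram K * (Q * P)) * X) * Q := by
          rw [hG, transpose_mul, transpose_mul]; simp only [Matrix.mul_assoc]
      _ = G := by rw [← transpose_mul, hQP, transpose_one, Matrix.one_mul, Matrix.mul_one, hX]
  have hGz : ∀ i j, G i j ≠ 0 → pt i + pt j = 0 := fun i j hne => by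
    have e1 := congrFun (congrFun (hgc A hgA) i) j
    have e2 := congrFun (congrFun (hgc B hgB) i) j
    rw [hPA, diagonal_transpose, mul_diagonal, diagonal_mul, hx i, hx j] at e1
    rw [hPB, diagonal_transpose, mul_diagonal, diagonal_mul, hy i, hy j] at e2
    refine Prod.ext (pw_injective hω (Units.ext ?_)) (pw_injective hω (Units.ext ?_))
    · refine mul_left_cancel₀ hne ?_
      show G i j * (pw ω (x i + x j) : K) = G i j * (pw ω (0 : ZMod 3) : K)
      rw [pw_add hω, pw_zero, Units.val_mul, Units.val_one, mul_one]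
      linear_combination e1
    · refine mul_left_cancel₀ hne ?_
      show G i j * (pw ω (y i + y j) : K) = G i j * (pw ω (0 : ZMod 3) : K)
      rw [pw_add hω, pw_zero, Units.val_mul, Units.val_one, mul_one]
      linear_combination e2
  have hGd : G.det ≠ 0 := by
    have hg2 : gram K * gram K = 1 := by
      ext i j
      simp only [gram, Matrix.mul_apply, Matrix.of_apply, ite_mul, one_mul, zero_mul, Finset.sum_ite_eq',
        Finset.mem_univ, if_true, Sum.swap_swap, Matrix.one_apply]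
      simp [eq_comm]
    have hgd : (gram K).det ≠ 0 := fun e => by
      have := congrArg Matrix.det hg2
      rw [det_mul, e, zero_mul, det_one] at this
      exact zero_ne_one this
    have hQd : Q.det ≠ 0 := fun e => by
      have := congrArg Matrix.det hQP
      rw [det_mul, e, zero_mul, det_one] at this
      exact zero_ne_one this
    rw [hG, det_mul, det_mul, det_transpose]
    exact mul_ne_zero (mul_ne_zero hQd hgd) hQd
  have hpair : ∀ i, ∃ j, pt i + pt j = 0 := fun i => by
    by_contra hall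
    push Not at hall
    exact hGd (det_eq_zero_of_row_eq_zero i fun j => by
      by_contra h
      exact hall j (hGz i j h))
  have hinj : Function.Injective pt := by
    intro i i' e
    by_contra hne
    obtain ⟨j, hj⟩ := hpair i
    have hji : j ≠ i := fun e' => by
      rw [e'] at hj
      exact hne0 i ((show ∀ p : ZMod 3 × ZMod 3, p + p = 0 → p = 0 by decide) _ hj)
    have hji' : j ≠ i' := fun e' => by
      rw [e', ← e] at hj
      exact hne0 i ((show ∀ p : ZMod 3 × ZMod 3, p + p = 0 → p = 0 by decide) _ hj)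
    obtain ⟨l, hl, hl2⟩ : ∃ l : ZMod 3 × ZMod 3,
        (pt i).1 * l.1 + (pt i).2 * l.2 = 0 ∧ cnt l = 2 := by
      rcases (show ∀ p : ZMod 3 × ZMod 3, p.1 * 1 + p.2 * 0 = 0 ∨ p.1 * 0 + p.2 * 1 = 0 ∨
          p.1 * 1 + p.2 * 1 = 0 ∨ p.1 * 1 + p.2 * 2 = 0 by decide) (pt i) with h | h | h | h
      exacts [⟨(1, 0), h, k1⟩, ⟨(0, 1), h, k2⟩, ⟨(1, 1), h, k3⟩, ⟨(1, 2), h, k4⟩]
    have hsub : ({i, i', j} : Finset I8) ⊆ Finset.univ.filter fun i => w l i = 0 := by
      intro k hk
      simp only [Finset.mem_insert, Finset.mem_singleton] at hk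
      simp only [Finset.mem_filter, Finset.mem_univ, true_and]
      show (pt k).1 * l.1 + (pt k).2 * l.2 = 0
      rcases hk with rfl | rfl | rfl
      · exact hl
      · rw [← e]; exact hl
      · rw [eq_neg_of_add_eq_zero_right hj, Prod.fst_neg, Prod.snd_neg]
        linear_combination -hl
    have h3c := Finset.card_le_card hsub
    rw [Finset.card_insert_of_notMem (by simp [hne, hji.symm]),
      Finset.card_insert_of_notMem (by simp [hji'.symm]), Finset.card_singleton] at h3c
    change 3 ≤ cnt l at h3c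
    omega
  choose k hk using fun i => wlist_mem (pt i) (hne0 i)
  have hkbij : Function.Bijective k := (Fintype.bijective_iff_injective_and_card k).2
    ⟨fun i i' e => hinj (by rw [← hk, e, hk]), rfl⟩
  let σ : Fin 8 ≃ I8 := (Equiv.ofBijective k hkbij).symm
  have hσ : ∀ a, pt (σ a) = wlist a := fun a => by
    rw [← hk]
    exact congrArg wlist ((Equiv.ofBijective k hkbij).apply_symm_apply a)
  set M := (P * V * Q).submatrix σ σ with hM
  set J := G.submatrix σ σ with hJ
  have hMz : ∀ a b, b ≠ flip8 a → M a b = 0 := fun a b hab' => by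
    by_contra hne
    apply hab'
    have e1 : (P * V * Q) * (P * A * Q) = (P * A * Q) * (P * V * Q) := by rw [← hmulc, ← hmulc, hVA]
    have e2 : (P * V * Q) * (P * B * Q) = (P * B * Q) * (P * B * Q) * (P * V * Q) := by
      rw [← hmulc, ← hmulc, ← hmulc, hVB]
    rw [hPA] at e1
    rw [hPB, diagonal_mul_diagonal] at e2
    have f1 := congrFun (congrFun e1 (σ a)) (σ b)
    have f2 := congrFun (congrFun e2 (σ a)) (σ b)
    rw [mul_diagonal, diagonal_mul, hx (σ a), hx (σ b), mul_comm] at f1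
    rw [mul_diagonal, diagonal_mul, hy (σ a), hy (σ b), ← Units.val_mul, ← pw_add hω, mul_comm] at f2
    have g1 : x (σ b) = x (σ a) := pw_injective hω (Units.ext (mul_right_cancel₀ hne f1))
    have g2 : y (σ b) = y (σ a) + y (σ a) := pw_injective hω (Units.ext (mul_right_cancel₀ hne f2))
    refine flip8_spec a b ?_ ?_
    · rw [← hσ, ← hσ]; exact g1.symm
    · rw [← hσ, ← hσ]
      show y (σ a) = - y (σ b)
      rw [g2]
      exact (show ∀ u : ZMod 3, u = -(u + u) by decide) _
  have hJz : ∀ a b, wlist a + wlist b ≠ 0 → J a b = 0 := fun a b hab' => by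
    by_contra hne
    exact hab' (by rw [← hσ, ← hσ]; exact hGz _ _ hne)
  set m : Fin 8 → K := fun a => M a (flip8 a) with hm
  have hMeq : M = diagonal m * flip8.toPEquiv.toMatrix := Matrix.ext fun a b => by
    rw [diagonal_mul, PEquiv.toMatrix_apply]
    simp only [Equiv.toPEquiv_apply, Option.mem_some_iff]
    by_cases h : flip8 a = b
    · rw [if_pos h, mul_one, ← h]
    · rw [if_neg h, mul_zero]; exact hMz a b fun e => h e.symm
  have hdM : M.det = -(∏ a, m a) := by
    rw [hMeq, det_mul, det_diagonal, Matrix.det_permutation, flip8_sign]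
    simp
  have hiso : Mᵀ * J * M = J := by
    have h := hgc V hgV
    rw [hM, hJ, transpose_submatrix, submatrix_mul_equiv, submatrix_mul_equiv, h]
  have hent : ∀ a b, m a * J a b * m b = J (flip8 a) (flip8 b) := fun a b => by
    have h := congrFun (congrFun hiso (flip8 a)) (flip8 b)
    rw [Matrix.mul_apply, Finset.sum_eq_single b, Matrix.mul_apply, Finset.sum_eq_single a] at h
    · simpa [hm] using h
    · intro a' _ ha'
      rw [transpose_apply, hMz a' (flip8 a) fun e => ha' (flip8.injective e).symm, zero_mul]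
    · simp
    · intro b' _ hb'
      rw [hMz b' (flip8 b) fun e => hb' (flip8.injective e).symm, mul_zero]
    · simp
  have hsym : ∀ a b, J a b = J b a := fun a b => by
    have hGs : Gᵀ = G := by
      rw [hG, transpose_mul, transpose_mul, transpose_transpose, Matrix.mul_assoc]
      congr 2
      ext i j
      simp only [gram, transpose_apply, Matrix.of_apply]
      exact if_congr ⟨fun e => by rw [e, Sum.swap_swap], fun e => by rw [e, Sum.swap_swap]⟩ rfl rfl
    show G (σ a) (σ b) = G (σ b) (σ a)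
    conv_lhs => rw [← hGs]
    rfl
  have hnz : ∀ a : Fin 8, (a : ℕ) % 2 = 0 → J a (a + 1) ≠ 0 := fun a ha e => hGd (by
    refine det_eq_zero_of_row_eq_zero (σ a) fun j => ?_
    obtain ⟨b, rfl⟩ := σ.surjective j
    show J a b = 0
    by_cases h : wlist a + wlist b = 0
    · rcases pair_spec' a b h with ⟨e1, e2⟩ | ⟨e1, -⟩
      · exfalso
        rw [e1] at ha
        exact (show ∀ b : Fin 8, (b : ℕ) % 2 = 0 → ((b + 1 : Fin 8) : ℕ) % 2 ≠ 0 by decide) b e2 ha
      · rw [e1, e]
    · exact hJz a b h)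
  have f0 : flip8 0 = 0 ∧ flip8 1 = 1 ∧ flip8 2 = 3 ∧ flip8 3 = 2 ∧ flip8 4 = 6 ∧ flip8 5 = 7 ∧
      flip8 6 = 4 ∧ flip8 7 = 5 := by decide
  obtain ⟨p0, p1, p2, p3, p4, p5, p6, p7⟩ := f0
  have q0 := hent 0 1; have q2 := hent 2 3; have q4 := hent 4 5; have q6 := hent 6 7
  rw [p0, p1] at q0
  rw [p2, p3, hsym 3 2] at q2
  rw [p4, p5] at q4
  rw [p6, p7] at q6
  have n0 : J 0 1 ≠ 0 := hnz 0 rfl
  have n2 : J 2 3 ≠ 0 := hnz 2 rfl
  have n4 : J 4 5 ≠ 0 := hnz 4 rfl
  have n6 : J 6 7 ≠ 0 := hnz 6 rfl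
  have r0 : m 0 * m 1 = 1 := mul_right_cancel₀ n0 (by linear_combination q0)
  have r2 : m 2 * m 3 = 1 := mul_right_cancel₀ n2 (by linear_combination q2)
  have r4 : m 4 * m 5 * (m 6 * m 7) = 1 := mul_right_cancel₀ n4 (by
    linear_combination (m 6 * m 7) * q4 + q6)
  have hprod : ∏ a, m a = 1 := by
    rw [Fin.prod_univ_eight]
    linear_combination (m 2 * m 3 * (m 4 * m 5 * (m 6 * m 7))) * r0 + (m 4 * m 5 * (m 6 * m 7)) * r2 + r4
  have hd1 : M.det = 1 := by
    rw [hM, det_submatrix_equiv_self, det_mul, det_mul, hdet, mul_one, ← det_mul, hPQ, det_one]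
  rw [hd1, hprod] at hdM
  exact h2 (by linear_combination hdM)

end CfsgLib.D4AltSection
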