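import Cfsg.Agent.D4AltSection.Classes
import Mathlib.RingTheory.IntegralDomain

/-!
Three-subgroups of `³D₄(q)` when three divides `q - 1`: they are generated by three elements, and elements of
order three are conjugate to normalizers of the three-torsion of the torus.
-/

set_option autoImplicit false

namespace CfsgLib.D4AltSection

open Cfsg.Lie CfsgLib.Chevalley

/-- Subgroups of a product of two cyclic groups are generated by two elements. -/
theorem exists_two_gen {A B : Type*} [CommGroup A] [CommGroup B] [IsCyclic A] [IsCyclic B]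
    (H : Subgroup (A × B)) : ∃ x y : A × B, x ∈ H ∧ y ∈ H ∧ H ≤ Subgroup.closure {x, y} := by
  obtain ⟨a, ha⟩ := (Subgroup.isCyclic_iff_exists_zpowers_eq_top (H.map (MonoidHom.fst A B))).1 inferInstance
  obtain ⟨x, hx, hxa⟩ : a ∈ H.map (MonoidHom.fst A B) := ha ▸ Subgroup.mem_zpowers a
  obtain ⟨b, hb⟩ := (Subgroup.isCyclic_iff_exists_zpowers_eq_top (H.comap (MonoidHom.inr A B))).1 inferInstance
  have hbH : ((1 : A), b) ∈ H := show b ∈ H.comap (MonoidHom.inr A B) from hb ▸ Subgroup.mem_zpowers b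
  refine ⟨x, (1, b), hx, hbH, fun h hh => ?_⟩
  have h1 : h.1 ∈ Subgroup.zpowers a := ha ▸ ⟨h, hh, rfl⟩
  obtain ⟨n, hn⟩ := Subgroup.mem_zpowers_iff.1 h1
  set k := (x ^ n)⁻¹ * h with hk
  have hkH : k ∈ H := mul_mem (inv_mem (zpow_mem hx n)) hh
  have hk1 : k.1 = 1 := by
    simp only [hk, Prod.fst_mul, Prod.fst_inv, Prod.pow_fst]
    rw [show x.1 = a from hxa, hn, inv_mul_cancel]
  have hk2 : k.2 ∈ Subgroup.zpowers b := hb ▸ (show k.2 ∈ H.comap (MonoidHom.inr A B) by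
    show ((1 : A), k.2) ∈ H
    rwa [show ((1 : A), k.2) = k from Prod.ext hk1.symm rfl])
  obtain ⟨m, hm⟩ := Subgroup.mem_zpowers_iff.1 hk2
  have he : h = x ^ n * ((1 : A), b) ^ m := by
    rw [show ((1 : A), b) ^ m = k from Prod.ext (by simp [hk1]) (by simp [hm]), hk, mul_inv_cancel_left]
  rw [he]
  exact mul_mem (zpow_mem (Subgroup.subset_closure (by simp)) n) (zpow_mem (Subgroup.subset_closure (by simp)) m)

local notation "S" => sysD4

variable {K : Type*} [Field K] [Fintype K] {q : ℕ} (hq : IsPrimePow q) (hK : Fintype.card K = q ^ 3)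

include hq hK in
theorem torus_two_gen (H : Subgroup ↥(twistedD4 K q)) (hH : H ≤ torT K q) :
    ∃ x y, x ∈ H ∧ y ∈ H ∧ H ≤ Subgroup.closure {x, y} := by
  classical
  choose c hc using fun t : ↥(torT K q) => exists_tor (show (t : ↥(twistedD4 K q)) ∈ torT K q from t.2)
  let val : ↥(torT K q) → Fin chevD4.nroots → Kˣ := fun t r => torusVal chevD4 (c t) r
  have hval : ∀ (t : ↥(torT K q)) (r : Fin chevD4.nroots),
      ((t : ↥(twistedD4 K q)) : GL chevD4.Idx K) * Sys.xG S K r 1 * ((t : ↥(twistedD4 K q)) : GL chevD4.Idx K)⁻¹ =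
        Sys.xG S K r (val t r : K) := fun t r => by
    rw [← hc t, Sys.tor_conj S K (c t) r.isLt, mul_one]
  have hmul : ∀ t t' r, val (t * t') r = val t r * val t' r := fun t t' r => Units.ext (by
    have h1 := hval (t * t') r
    rw [Subgroup.coe_mul, Subgroup.coe_mul, ← hc t, ← hc t', ← map_mul, Sys.tor_conj S K _ r.isLt, mul_one] at h1
    rw [← ChevField.xG_inj S r.isLt h1, torusVal, Units.val_mul, ← Units.val_mul]
    simp only [val, torusVal, ← Finset.prod_mul_distrib, Pi.mul_apply, mul_zpow])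
  let ψ : ↥(torT K q) →* Kˣ × Kˣ := MonoidHom.mk' (fun t => (val t ⟨18, by decide⟩, val t ⟨14, by decide⟩))
    fun t t' => Prod.ext (hmul _ _ _) (hmul _ _ _)
  have hψ : Function.Injective ψ := by
    rw [injective_iff_map_eq_one]
    intro t ht
    have h18 : torusVal chevD4 (c t) 18 = 1 := congrArg Prod.fst ht
    have h14 : torusVal chevD4 (c t) 14 = 1 := congrArg Prod.snd ht
    obtain ⟨t13, t12, -⟩ := torus_twist hq hK (c := c t) (hc t ▸ (t : ↥(twistedD4 K q)).2)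
    rw [h18, Units.val_one, one_pow] at t13
    rw [t13, one_pow] at t12
    refine Subtype.ext (Subtype.ext ((hc t).symm.trans (Sys.tor_eq_one_of_simple S K (c t) fun i hi => ?_)))
    have s0 : chevD4.simple 0 = 18 := by decide +kernel
    have s1 : chevD4.simple 1 = 14 := by decide +kernel
    have s2 : chevD4.simple 2 = 13 := by decide +kernel
    have s3 : chevD4.simple 3 = 12 := by decide +kernel
    replace hi : i < 4 := hi
    interval_cases i <;> simp [s0, s1, s2, s3, h18, h14, t13, t12]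
  obtain ⟨x, y, hx, hy, hle⟩ := exists_two_gen ((H.subgroupOf (torT K q)).map ψ)
  obtain ⟨x', hx', rfl⟩ := hx
  obtain ⟨y', hy', rfl⟩ := hy
  refine ⟨x', y', hx', hy', fun h hh => ?_⟩
  have h1 := hle ⟨⟨h, hH hh⟩, hh, rfl⟩
  rw [show ({ψ x', ψ y'} : Set (Kˣ × Kˣ)) = ψ '' {x', y'} by rw [Set.image_pair], ← MonoidHom.map_closure,
    Subgroup.mem_map_iff_mem hψ] at h1
  have h2 := Subgroup.mem_map_of_mem (torT K q).subtype h1
  rw [MonoidHom.map_closure, Set.image_pair] at h2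
  exact h2

set_option maxHeartbeats 400000 in
include hq hK in
/-- A Sylow three-subgroup meeting the torus in a normal subgroup of index three. -/
theorem exists_sylow (h3 : 3 ∣ q - 1) :
    ∃ R : Sylow 3 ↥(twistedD4 K q), (torT K q).relIndex R = 3 ∧
      (∀ t ∈ torT K q, t ^ 3 = 1 → t ∈ (R : Subgroup ↥(twistedD4 K q))) ∧
      ∀ g ∈ (R : Subgroup ↥(twistedD4 K q)), ∀ t ∈ torT K q ⊓ (R : Subgroup ↥(twistedD4 K q)),
        g * t * g⁻¹ ∈ torT K q := by
  haveI : Fact (Nat.Prime 3) := ⟨by norm_num⟩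
  set T := torT K q
  obtain ⟨R₀⟩ : Nonempty (Sylow 3 ↥T) := Sylow.nonempty
  set A := (R₀ : Subgroup ↥T).map T.subtype with hA
  obtain ⟨R, hR⟩ := (R₀.2.map T.subtype).exists_le_sylow
  have hAT : A ≤ T := Subgroup.map_subtype_le _
  have hRT : T ⊓ (R : Subgroup _) = A := by
    refine le_antisymm (fun x hx => ?_) (le_inf hAT hR)
    have hp : IsPGroup 3 ↥((R : Subgroup _).subgroupOf T) := R.2.comap_subtype
    have hle : (R₀ : Subgroup ↥T) ≤ (R : Subgroup _).subgroupOf T := fun y hy =>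
      hR ⟨y, hy, rfl⟩
    rw [hA]
    exact ⟨⟨x, hx.1⟩, (R₀.3 hp hle) ▸ (show (⟨x, hx.1⟩ : ↥T) ∈ (R : Subgroup _).subgroupOf T from hx.2), rfl⟩
  obtain ⟨h9, h3i⟩ := index_torT_three hq hK h3
  obtain ⟨m, hm⟩ := h3i
  have hm3 : ¬ 3 ∣ m := fun ⟨k, hk⟩ => h9 ⟨k, by rw [hm, hk]; ring⟩
  have hcR : Nat.card ↥(R : Subgroup ↥(twistedD4 K q)) = 3 * Nat.card ↥A := by
    rw [R.card_eq_multiplicity, hA, Subgroup.card_map_of_injective T.subtype_injective, R₀.card_eq_multiplicity,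
      ← T.card_mul_index, hm, Nat.factorization_mul Nat.card_pos.ne' (by omega),
      Nat.factorization_mul (by norm_num) (by omega), Finsupp.add_apply, Finsupp.add_apply,
      Nat.factorization_eq_zero_of_not_dvd hm3, add_zero, Nat.Prime.factorization_self (by norm_num), pow_succ,
      mul_comm]
  have hrel : T.relIndex (R : Subgroup ↥(twistedD4 K q)) = 3 := by
    rw [Subgroup.relIndex]
    refine Nat.eq_of_mul_eq_mul_left (Nat.card_pos (α := ↥(T.subgroupOf (R : Subgroup _)))) ?_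
    rw [Subgroup.card_mul_index, hcR, ← Subgroup.inf_subgroupOf_right, hRT,
      Nat.card_congr (Subgroup.subgroupOfEquivOfLe hR).toEquiv, mul_comm]
  refine ⟨R, hrel, fun t ht h3t => ?_, fun g hg t ht => ?_⟩
  · have hz : IsPGroup 3 (Subgroup.zpowers (⟨t, ht⟩ : ↥T)) := by
      obtain ⟨e, -, he⟩ := (Nat.dvd_prime_pow (show Nat.Prime 3 by norm_num)).1
        (orderOf_dvd_of_pow_eq_one (show (⟨t, ht⟩ : ↥T) ^ 3 ^ 1 = 1 from Subtype.ext (by simpa using h3t)))
      exact IsPGroup.of_card (n := e) (by rw [Nat.card_zpowers, he])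
    obtain ⟨P, hP⟩ := hz.exists_le_sylow
    haveI : (R₀ : Subgroup ↥T).Normal := ⟨fun n hn g => by
      rwa [show g * n * g⁻¹ = n from mul_inv_eq_iff_eq_mul.2 (Subtype.ext (torT_comm g.2 n.2))]⟩
    haveI := Sylow.unique_of_normal R₀ inferInstance
    rw [Subsingleton.elim P R₀] at hP
    exact hR ⟨_, hP (Subgroup.mem_zpowers _), rfl⟩
  · haveI : (T.subgroupOf (R : Subgroup _)).Normal := by
      refine Subgroup.normal_of_index_eq_minFac_card ?_
      rw [← Subgroup.relIndex, hrel]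
      obtain ⟨k, hk⟩ := IsPGroup.iff_card.1 R.2
      rw [hk, Nat.pow_minFac (fun e => by
        rw [e, pow_zero] at hk
        have := Subgroup.index_dvd_card (T.subgroupOf (R : Subgroup ↥(twistedD4 K q)))
        rw [← Subgroup.relIndex, hrel, hk] at this
        norm_num at this)]
      norm_num
    obtain ⟨ht1, ht2⟩ := Subgroup.mem_inf.1 ht
    have h := this.conj_mem (⟨t, ht2⟩ : ↥(R : Subgroup ↥(twistedD4 K q))) (Subgroup.mem_subgroupOf.2 ht1) ⟨g, hg⟩
    rw [Subgroup.mem_subgroupOf, Subgroup.coe_mul, Subgroup.coe_mul, Subgroup.coe_inv] at h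
    exact h

include hq hK in
theorem three_gen (h3 : 3 ∣ q - 1) (N : Subgroup ↥(twistedD4 K q)) (hN : IsPGroup 3 N) :
    ∃ a b c, a ∈ N ∧ b ∈ N ∧ c ∈ N ∧ N ≤ Subgroup.closure {a, b, c} := by
  classical
  haveI : Fact (Nat.Prime 3) := ⟨by norm_num⟩
  obtain ⟨R, hrel, -, -⟩ := exists_sylow hq hK h3
  obtain ⟨P, hP⟩ := hN.exists_le_sylow
  obtain ⟨g, hg⟩ := MulAction.exists_smul_eq ↥(twistedD4 K q) P R
  set φ := (MulAut.conj g : MulAut ↥(twistedD4 K q)).toMonoidHom
  set N' := N.map φ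
  have hN' : N' ≤ (R : Subgroup _) := by
    rw [← hg, Sylow.coe_subgroup_smul]
    exact Subgroup.map_mono hP
  obtain ⟨x, y, hx, hy, hxy⟩ := torus_two_gen hq hK (torT K q ⊓ N') inf_le_left
  have hrel' : (torT K q).relIndex N' ≤ 3 :=
    hrel ▸ Subgroup.relIndex_le_of_le_right (H := torT K q) hN' (by rw [hrel]; norm_num)
  obtain ⟨z, hz, hzle⟩ : ∃ z ∈ N', N' ≤ Subgroup.closure {x, y, z} := by
    have hmono : torT K q ⊓ N' ≤ Subgroup.closure {x, y, 1} :=
      hxy.trans (Subgroup.closure_mono (by intro w; simp; tauto))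
    by_cases hT : N' ≤ torT K q
    · exact ⟨1, one_mem _, fun w hw => hmono ⟨hT hw, hw⟩⟩
    obtain ⟨z, hz, hzT⟩ := SetLike.not_le_iff_exists.1 hT
    refine ⟨z, hz, fun w hw => ?_⟩
    set C := (Subgroup.closure {x, y, z}).subgroupOf N'
    have hlt : (torT K q).subgroupOf N' < C := by
      refine lt_of_le_not_ge (fun u hu => ?_) fun h => hzT (h (show (⟨z, hz⟩ : ↥N') ∈ C from
        Subgroup.subset_closure (by simp)))
      exact hxy.trans (Subgroup.closure_mono (by intro v; simp; tauto)) ⟨hu, u.2⟩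
    have hp3 : IsPGroup 3 ↥N' := hN.map φ
    obtain ⟨k, hk⟩ := IsPGroup.iff_card.1 hp3
    obtain ⟨l, -, hl⟩ := (Nat.dvd_prime_pow (show Nat.Prime 3 by norm_num)).1 (hk ▸ C.index_dvd_card)
    have h1 := Subgroup.index_strictAnti hlt
    rw [Subgroup.relIndex] at hrel'
    have hl0 : l = 0 := by
      by_contra h0
      have : 3 ≤ 3 ^ l := Nat.le_self_pow h0 3
      omega
    have htop : C = ⊤ := Subgroup.index_eq_one.1 (by rw [hl, hl0, pow_zero])
    exact (htop ▸ Subgroup.mem_top (⟨w, hw⟩ : ↥N') : (⟨w, hw⟩ : ↥N') ∈ C)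
  obtain ⟨x', hx', rfl⟩ := hx.2
  obtain ⟨y', hy', rfl⟩ := hy.2
  obtain ⟨z', hz', rfl⟩ := hz
  refine ⟨x', y', z', hx', hy', hz', fun w hw => ?_⟩
  have h1 := hzle (Subgroup.mem_map_of_mem φ hw)
  rw [show ({φ x', φ y', φ z'} : Set ↥(twistedD4 K q)) = φ '' {x', y', z'} by simp [Set.image_insert_eq],
    ← MonoidHom.map_closure, Subgroup.mem_map_iff_mem (MulAut.conj g).injective] at h1
  exact h1

include hq hK in
theorem nn_three (h3 : 3 ∣ q - 1) (h8 : (8 : K) ≠ 0) {ω : Kˣ} (hω : orderOf ω = 3) (g : ↥(twistedD4 K q))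
    (hg3 : g ^ 3 = 1) (hg1 : g ≠ 1) (M : GL I8 K) (hM : Lift (g : GL chevD4.Idx K) M) (hM3 : M ^ 3 = 1) :
    nn (M : Matrix I8 I8 K) = 2 ∨ nn (M : Matrix I8 I8 K) = 4 := by
  haveI : Fact (Nat.Prime 3) := ⟨by norm_num⟩
  obtain ⟨R, -, hT3, hnorm⟩ := exists_sylow hq hK h3
  obtain ⟨P, hP⟩ := (IsPGroup.of_card (n := 1) (by
    rw [Nat.card_zpowers, orderOf_eq_prime hg3 hg1, pow_one]) : IsPGroup 3 (Subgroup.zpowers g)).exists_le_sylow
  obtain ⟨x, hx⟩ := MulAction.exists_smul_eq ↥(twistedD4 K q) P R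
  have hgR : x * g * x⁻¹ ∈ (R : Subgroup ↥(twistedD4 K q)) := by
    rw [← hx, Sylow.coe_subgroup_smul]
    exact Subgroup.smul_mem_pointwise_smul g (MulAut.conj x) _ (hP (Subgroup.mem_zpowers g))
  obtain ⟨X, hX⟩ := exists_lift (twisted_le_group hq hK x.2)
  rw [← nn_conj M X]
  refine nn_of_normalizes hq hK h3 h8 hω (x * g * x⁻¹) (fun e => hg1 (by
    rwa [mul_inv_eq_one, mul_eq_left] at e)) _ ?_ ?_ fun t ht ht3 => hnorm _ hgR t ⟨ht, hT3 t ht ht3⟩
  · have := lift_mul (lift_mul hX hM) (lift_inv hX)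
    simpa using this
  · rw [conj_pow, hM3, mul_one, mul_inv_cancel]

end CfsgLib.D4AltSection
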